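import Mathlib

/-!
Skew maps of a field extension of prime degree: an invariant subspace under scalings and one
transvection contains every map of rank two.
-/

set_option autoImplicit false
set_option linter.unusedSectionVars false

namespace Cfsg.Agent.MaxSub.OrthExt

open Module

variable {F K : Type*} [Field F] [Field K] [Algebra F K]

/-- The basic skew map attached to `a` and `b`. -/
noncomputable def Sk (a b : K) : K →ₗ[F] K :=
  ((Algebra.trace F K) ∘ₗ LinearMap.mulLeft F a).smulRight b -
    ((Algebra.trace F K) ∘ₗ LinearMap.mulLeft F b).smulRight a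

lemma Sk_apply (a b H : K) :
    Sk (F := F) a b H = Algebra.trace F K (a * H) • b - Algebra.trace F K (b * H) • a := rfl

/-- Skew for the trace form. -/
def IsSkew (A : K →ₗ[F] K) : Prop :=
  ∀ k l, Algebra.trace F K (k * A l) = - Algebra.trace F K (l * A k)

lemma Sk_swap (a b : K) : Sk (F := F) b a = - Sk (F := F) a b := by
  unfold Sk; abel

lemma Sk_self (a : K) : Sk (F := F) a a = 0 := by
  unfold Sk; abel

lemma Sk_add_right (a b b' : K) : Sk (F := F) a (b + b') = Sk a b + Sk a b' := by
  refine LinearMap.ext fun H => ?_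
  simp only [Sk_apply, LinearMap.add_apply, add_mul, map_add, smul_add, add_smul]
  abel

lemma Sk_smul_right (a b : K) (t : F) : Sk (F := F) a (t • b) = t • Sk a b := by
  refine LinearMap.ext fun H => ?_
  simp only [Sk_apply, LinearMap.smul_apply, smul_mul_assoc, map_smul, smul_eq_mul]
  module

lemma Sk_add_left (a a' b : K) : Sk (F := F) (a + a') b = Sk a b + Sk a' b := by
  rw [Sk_swap b, Sk_add_right, neg_add, ← Sk_swap, ← Sk_swap]

lemma Sk_smul_left (a b : K) (t : F) : Sk (F := F) (t • a) b = t • Sk a b := by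
  rw [Sk_swap b, Sk_smul_right, Sk_swap a b]
  module

/-- The conditions on an invariant subspace. -/
structure Closed (O : Submodule F (K →ₗ[F] K)) (ψ : K →ₗ[F] F) (p : K) : Prop where
  one : ψ 1 = 0
  ne : ψ ≠ 0
  rep : ∀ l, ψ l = Algebra.trace F K (p * l)
  scale : ∀ A ∈ O, ∀ l : K, l ≠ 0 → LinearMap.mulLeft F l ∘ₗ A ∘ₗ LinearMap.mulLeft F l ∈ O
  transv : ∀ A ∈ O, (LinearMap.id + ψ.smulRight (1 : K)) ∘ₗ A ∘ₗ
    (LinearMap.id + (Algebra.trace F K).smulRight p) ∈ O

/-- A hyperplane containing one is not closed under inversion. -/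
lemma exists_inverse_off [FiniteDimensional F K] (hp : (finrank F K).Prime) (hr3 : 3 ≤ finrank F K)
    (h2 : (2 : F) ≠ 0) {ψ : K →ₗ[F] F} (hψ : ψ ≠ 0) (h1 : ψ 1 = 0) :
    ∃ l : K, l ≠ 0 ∧ ψ l = 0 ∧ ψ l⁻¹ ≠ 0 := by
  by_contra hcon
  push Not at hcon
  have hinv : ∀ l, ψ l = 0 → ψ l⁻¹ = 0 := by
    intro l hl
    rcases eq_or_ne l 0 with rfl | hl0
    · simp
    exact hcon l hl0 hl
  have hsq : ∀ a b, ψ a = 0 → ψ b = 0 → ψ (a * a * b) = 0 := by
    intro a b ha hb
    rcases eq_or_ne a 0 with rfl | ha0
    · simp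
    rcases eq_or_ne b 0 with rfl | hb0
    · simp
    by_cases hab : 1 - a * b = 0
    · rw [show a * a * b = a by linear_combination (-a) * hab]
      exact ha
    · have e : (a⁻¹ + (b⁻¹ - a)⁻¹)⁻¹ = a - a * a * b := by
        rw [show b⁻¹ - a = (1 - a * b) / b by field_simp]
        have e' : a⁻¹ + ((1 - a * b) / b)⁻¹ = (a - a * a * b)⁻¹ := by
          rw [show a - a * a * b = a * (1 - a * b) by ring]
          field_simp
          ring
        rw [e', inv_inv]
      have := hinv (a⁻¹ + (b⁻¹ - a)⁻¹)
        (by rw [map_add, hinv a ha, zero_add]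
            exact hinv _ (by rw [map_sub, hinv b hb, ha, sub_zero]))
      rwa [e, map_sub, ha, zero_sub, neg_eq_zero] at this
  let S : Subalgebra F K :=
    { carrier := {t | ∀ k, ψ k = 0 → ψ (t * k) = 0}
      mul_mem' := fun {s t} hs ht k hk => by rw [mul_assoc]; exact hs _ (ht k hk)
      one_mem' := fun k hk => by rwa [one_mul]
      add_mem' := fun {s t} hs ht k hk => by rw [add_mul, map_add, hs k hk, ht k hk, add_zero]
      zero_mem' := fun k hk => by rw [zero_mul, map_zero]
      algebraMap_mem' := fun f k hk => by rw [← Algebra.smul_def, map_smul, hk, smul_zero] }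
  haveI := Subalgebra.isSimpleOrder_of_finrank_prime F K hp
  obtain ⟨a, ha, hnot⟩ : ∃ a, ψ a = 0 ∧ a ∉ Set.range (algebraMap F K) := by
    by_contra hall
    push Not at hall
    have hle : LinearMap.ker ψ ≤ Submodule.span F {(1 : K)} := fun a ha => by
      obtain ⟨f, rfl⟩ := hall a ha
      rw [Algebra.algebraMap_eq_smul_one]
      exact Submodule.smul_mem _ _ (Submodule.mem_span_singleton_self _)
    have e1 := Submodule.finrank_mono hle
    rw [finrank_span_singleton one_ne_zero] at e1
    have e2 := LinearMap.finrank_range_add_finrank_ker ψ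
    have e3 := (Submodule.finrank_le (LinearMap.range ψ)).trans_eq (Module.finrank_self F)
    omega
  rcases eq_bot_or_eq_top S with hb | ht
  · have hm : a ∈ S := by
      intro k hk
      have e1 := hsq (a + 1) k (by rw [map_add, ha, h1, add_zero]) hk
      rw [show (a + 1) * (a + 1) * k = a * a * k + (2 : F) • (a * k) + k by
        rw [Algebra.smul_def, map_ofNat]; ring, map_add, map_add, hsq a k ha hk, hk, map_smul,
        zero_add, add_zero, smul_eq_mul] at e1
      exact (mul_eq_zero.1 e1).resolve_left h2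
    rw [hb, Algebra.mem_bot] at hm
    exact hnot hm
  · refine hψ (LinearMap.ext fun t => ?_)
    have ht' : t ∈ S := ht ▸ Algebra.mem_top
    simpa using ht' 1 h1

/-- Degree two: one nonzero skew map spans the skew maps. -/
lemma sk_mem_of_two [FiniteDimensional F K] [Algebra.IsSeparable F K] (h2 : (2 : F) ≠ 0)
    (hr : finrank F K = 2) (O : Submodule F (K →ₗ[F] K)) {A : K →ₗ[F] K} (hA : A ∈ O)
    (hskew : IsSkew A) (hA0 : A ≠ 0) (a b : K) : Sk (F := F) a b ∈ O := by
  let bas : Basis (Fin 2) F K := finBasisOfFinrankEq F K hr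
  have hnd := traceForm_nondegenerate F K
  have hzero : ∀ B : K →ₗ[F] K, IsSkew B → Algebra.trace F K (bas 0 * B (bas 1)) = 0 → B = 0 := by
    intro B hB h01
    have h00 : ∀ i, Algebra.trace F K (bas i * B (bas i)) = 0 := fun i =>
      (mul_eq_zero.1 (show (2 : F) * Algebra.trace F K (bas i * B (bas i)) = 0 by
        linear_combination hB (bas i) (bas i))).resolve_left h2
    refine bas.ext fun j => hnd.1 _ fun k => ?_
    have : ((Algebra.trace F K) ∘ₗ LinearMap.mulRight F (B (bas j))) = 0 := bas.ext fun i => by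
      show Algebra.trace F K (bas i * B (bas j)) = 0
      fin_cases i <;> fin_cases j
      · exact h00 0
      · exact h01
      · show Algebra.trace F K (bas 1 * B (bas 0)) = 0
        rw [hB, h01, neg_zero]
      · exact h00 1
    have h := LinearMap.congr_fun this k
    rw [Algebra.traceForm_apply, mul_comm]
    simpa using h
  have hSk : IsSkew (Sk (F := F) a b) := fun k l => by
    simp only [Sk_apply, mul_sub, mul_smul_comm, map_sub, map_smul, smul_eq_mul]
    rw [mul_comm k b, mul_comm k a, mul_comm l b, mul_comm l a]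
    ring
  obtain ⟨c, hc⟩ : ∃ c, c = Algebra.trace F K (bas 0 * A (bas 1)) := ⟨_, rfl⟩
  have hc0 : c ≠ 0 := fun e => hA0 (hzero A hskew (hc ▸ e))
  obtain ⟨s, hs⟩ : ∃ s, s = Algebra.trace F K (bas 0 * Sk (F := F) a b (bas 1)) / c := ⟨_, rfl⟩
  have := hzero (Sk (F := F) a b - s • A) (fun k l => by
      simp only [LinearMap.sub_apply, LinearMap.smul_apply, mul_sub, mul_smul_comm, map_sub,
        map_smul, smul_eq_mul, hSk k l, hskew k l]
      ring) (by
      simp only [LinearMap.sub_apply, LinearMap.smul_apply, mul_sub, mul_smul_comm, map_sub,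
        map_smul, smul_eq_mul, ← hc, hs, div_mul_cancel₀ _ hc0, sub_self])
  rw [sub_eq_zero.1 this]
  exact O.smul_mem s hA

/-- Degree at least three: everything. -/
theorem sk_mem_of_closed [FiniteDimensional F K] [Finite K] (h2 : (2 : F) ≠ 0)
    (hp : (finrank F K).Prime) (hr3 : 3 ≤ finrank F K) {O : Submodule F (K →ₗ[F] K)}
    {ψ : K →ₗ[F] F} {p : K} (hO : Closed O ψ p) {A : K →ₗ[F] K} (hA : A ∈ O) (hskew : IsSkew A)
    (hA0 : A ≠ 0) (a b : K) : Sk (F := F) a b ∈ O := by
  haveI : Finite F := Finite.of_injective _ (algebraMap F K).injective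
  have hp0 : p ≠ 0 := fun e => hO.ne (LinearMap.ext fun l => by simp [hO.rep, e])
  have htp : Algebra.trace F K p = 0 := by
    have := hO.rep 1
    rwa [hO.one, mul_one, eq_comm] at this
  haveI := Subalgebra.isSimpleOrder_of_finrank_prime F K hp
  -- scaled maps send `p` off the base field
  obtain ⟨B, hB, hBskew, hBp⟩ : ∃ B ∈ O, IsSkew B ∧ B p ∉ Set.range (algebraMap F K) := by
    by_contra hall
    push Not at hall
    have hsk : ∀ l : K, IsSkew (LinearMap.mulLeft F l ∘ₗ A ∘ₗ LinearMap.mulLeft F l) := by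
      intro l k k'
      simp only [LinearMap.comp_apply, LinearMap.mulLeft_apply]
      rw [show k * (l * A (l * k')) = l * k * A (l * k') by ring, hskew,
        show k' * (l * A (l * k)) = l * k' * A (l * k) by ring]
    have hAm : ∀ μ, μ ≠ 0 → ∃ f : F, A μ = f • (p / μ) := by
      intro μ hμ
      have hl : μ / p ≠ 0 := div_ne_zero hμ hp0
      obtain ⟨f, hf⟩ := hall _ (hO.scale A hA _ hl) (hsk _)
      refine ⟨f, ?_⟩
      simp only [LinearMap.comp_apply, LinearMap.mulLeft_apply, div_mul_cancel₀ _ hp0] at hf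
      rw [Algebra.smul_def, hf]
      field_simp
    refine hA0 (LinearMap.ext fun μ => ?_)
    rcases eq_or_ne μ 0 with rfl | hμ
    · simp
    obtain ⟨s, hs⟩ : ∃ s : K, s ∉ Set.range (algebraMap F K) := by
      by_contra hh
      push Not at hh
      have hle := LinearMap.finrank_range_le (Algebra.linearMap F K)
      rw [LinearMap.range_eq_top.2 (fun c => by obtain ⟨a, ha⟩ := hh c; exact ⟨a, ha⟩), finrank_top,
        Module.finrank_self] at hle
      omega
    have hs0 : s ≠ 0 := fun e => hs ⟨0, by rw [map_zero, e]⟩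
    have hs1 : 1 + s ≠ 0 := fun e => hs ⟨-1, by rw [map_neg, map_one]; linear_combination -e⟩
    obtain ⟨c1, hc1⟩ := hAm μ hμ
    obtain ⟨c2, hc2⟩ := hAm (s * μ) (mul_ne_zero hs0 hμ)
    obtain ⟨c3, hc3⟩ := hAm ((1 + s) * μ) (mul_ne_zero hs1 hμ)
    have hsum : (1 + s) * μ = μ + s * μ := by ring
    rw [hsum, map_add, hc1, hc2] at hc3
    rw [← hsum] at hc3
    simp only [Algebra.smul_def] at hc3
    have hq : algebraMap F K c1 * (s * s) + algebraMap F K (c1 + c2 - c3) * s +
        algebraMap F K c2 = 0 := by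
      rw [map_sub, map_add]
      field_simp at hc3
      linear_combination hc3
    have hmin : (minpoly F s).natDegree = finrank F K := by
      have hdvd := minpoly.degree_dvd (K := F) (L := K) (x := s) (Algebra.IsIntegral.isIntegral s)
      rcases hp.eq_one_or_self_of_dvd _ hdvd with h | h
      · exact absurd ((minpoly.natDegree_eq_one_iff).1 h) hs
      · exact h
    rw [LinearMap.zero_apply, hc1]
    rcases eq_or_ne c1 0 with h0 | h0
    · rw [h0, zero_smul]
    exfalso
    let P : Polynomial F := Polynomial.C c1 * Polynomial.X ^ 2 +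
      Polynomial.C (c1 + c2 - c3) * Polynomial.X + Polynomial.C c2
    have hP0 : P ≠ 0 := fun e => h0 (by
      simpa [P, Polynomial.coeff_X, Polynomial.coeff_C] using congrArg (fun Q => Q.coeff 2) e)
    have hP : Polynomial.aeval s P = 0 := by
      simp [P, pow_two]
      simp only [map_sub, map_add] at hq
      linear_combination hq
    have hle : (minpoly F s).natDegree ≤ P.natDegree :=
      Polynomial.natDegree_le_of_dvd (minpoly.dvd F s hP) hP0
    simp only [P] at hle
    have := Polynomial.natDegree_quadratic_le (a := c1) (b := c1 + c2 - c3) (c := c2)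
    omega
  -- a map of rank two from the transvection
  obtain ⟨w, hw, hw1, hwF⟩ : ∃ w, w = B p ∧ Sk (F := F) 1 w ∈ O ∧
      w ∉ Set.range (algebraMap F K) := by
    refine ⟨_, rfl, ?_, hBp⟩
    have hd := O.sub_mem (hO.transv B hB) hB
    convert hd using 1
    refine LinearMap.ext fun H => ?_
    have e1 : Algebra.trace F K (p * B p) = 0 :=
      (mul_eq_zero.1 (show (2 : F) * Algebra.trace F K (p * B p) = 0 by
        linear_combination hBskew p p)).resolve_left h2
    have e2 : ψ (B H) = - Algebra.trace F K (B p * H) := by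
      rw [hO.rep, hBskew, mul_comm]
    simp only [LinearMap.sub_apply, LinearMap.comp_apply, LinearMap.add_apply, LinearMap.id_apply,
      LinearMap.smulRight_apply, map_add, map_smul, Sk_apply, one_mul, hO.rep (B p), e1, e2]
    module
  let J : Submodule F K :=
    { carrier := {f | Sk (F := F) 1 f ∈ O}
      add_mem' := fun {f f'} h h' => by
        show Sk (F := F) 1 (f + f') ∈ O
        rw [Sk_add_right]; exact O.add_mem h h'
      zero_mem' := by
        show Sk (F := F) 1 0 ∈ O
        have : Sk (F := F) (1 : K) 0 = 0 := LinearMap.ext fun H => by simp [Sk_apply]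
        rw [this]; exact O.zero_mem
      smul_mem' := fun t f h => by
        show Sk (F := F) 1 (t • f) ∈ O
        rw [Sk_smul_right]; exact O.smul_mem t h }
  have hscale : ∀ l u v, l ≠ 0 → Sk (F := F) u v ∈ O → Sk (F := F) (l * u) (l * v) ∈ O := by
    intro l u v hl h
    convert hO.scale _ h l hl using 1
    refine LinearMap.ext fun H => ?_
    simp only [LinearMap.comp_apply, LinearMap.mulLeft_apply, Sk_apply, mul_sub, mul_smul_comm,
      mul_assoc, mul_left_comm l]
  have htr : ∀ u v, Sk (F := F) u v ∈ O →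
      Sk (F := F) (u + ψ u • 1) (v + ψ v • 1) ∈ O := by
    intro u v h
    convert hO.transv _ h using 1
    refine LinearMap.ext fun H => ?_
    simp only [LinearMap.comp_apply, LinearMap.add_apply, LinearMap.id_apply,
      LinearMap.smulRight_apply, Sk_apply, map_sub, map_smul, mul_add, add_mul, mul_smul_comm,
      smul_mul_assoc, one_mul, map_add, hO.rep, mul_comm u p, mul_comm v p, smul_eq_mul]
    module
  have hquad : ∀ f ∈ J, ∀ l : K, ψ l • (l * f) - ψ (l * f) • l ∈ J := by
    intro f hf l
    rcases eq_or_ne l 0 with rfl | hl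
    · simp
    have h1 := hscale l 1 f hl hf
    rw [mul_one] at h1
    have h2' := O.sub_mem (htr _ _ h1) h1
    show Sk (F := F) 1 _ ∈ O
    convert h2' using 1
    rw [Sk_add_left, Sk_add_right, Sk_add_right, Sk_smul_left, Sk_smul_left, Sk_smul_right,
      Sk_smul_right, Sk_self, sub_eq_add_neg (ψ l • (l * f)), ← neg_smul, Sk_add_right,
      Sk_smul_right, Sk_smul_right, Sk_swap 1 l]
    module
  have hpol : ∀ f ∈ J, ∀ l m : K, ψ l • (m * f) + ψ m • (l * f) - ψ (l * f) • m - ψ (m * f) • l ∈ J := by
    intro f hf l m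
    have := J.sub_mem (J.sub_mem (hquad f hf (l + m)) (hquad f hf l)) (hquad f hf m)
    convert this using 1
    simp only [add_mul, map_add, add_smul, smul_add]
    abel
  have h1J : (1 : K) ∈ J := by
    show Sk (F := F) 1 1 ∈ O
    rw [Sk_self]; exact O.zero_mem
  suffices hJ : J = ⊤ by
    rcases eq_or_ne a 0 with rfl | ha
    · have : Sk (F := F) (0 : K) b = 0 := LinearMap.ext fun H => by simp [Sk_apply]
      rw [this]; exact O.zero_mem
    · have h1 : b / a ∈ J := hJ ▸ Submodule.mem_top
      have h2' := hscale a 1 _ ha h1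
      rwa [mul_one, mul_div_cancel₀ _ ha] at h2'
  by_contra hJ
  have hker : ∀ f ∈ J, ψ f = 0 := by
    intro f hf
    by_contra h0
    refine hJ ((Submodule.eq_top_iff').2 fun l => ?_)
    have := hpol f hf l 1
    rw [one_mul, hO.one, zero_smul, add_zero] at this
    have h3 := J.sub_mem (J.sub_mem (J.smul_mem (ψ l) hf) (J.smul_mem (ψ (l * f)) h1J)) this
    rw [show ψ l • f - ψ (l * f) • 1 - (ψ l • f - ψ (l * f) • 1 - ψ f • l) = ψ f • l by abel] at h3
    exact (Submodule.smul_mem_iff _ h0).1 h3
  have hJH : ∀ μ, ψ μ = 0 → μ ∈ J := by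
    obtain ⟨l, hl, hlw⟩ : ∃ l, ψ l = 0 ∧ ψ (l * w) ≠ 0 := by
      by_contra hh
      push Not at hh
      let S : Subalgebra F K :=
        { carrier := {t | ∀ k, ψ k = 0 → ψ (t * k) = 0}
          mul_mem' := fun {s t} hs ht k hk => by rw [mul_assoc]; exact hs _ (ht k hk)
          one_mem' := fun k hk => by rwa [one_mul]
          add_mem' := fun {s t} hs ht k hk => by
            rw [add_mul, map_add, hs k hk, ht k hk, add_zero]
          zero_mem' := fun k hk => by rw [zero_mul, map_zero]
          algebraMap_mem' := fun f k hk => by rw [← Algebra.smul_def, map_smul, hk, smul_zero] }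
      have hwS : w ∈ S := fun k hk => by rw [mul_comm]; exact hh k hk
      rcases eq_bot_or_eq_top S with hb | ht
      · rw [hb, Algebra.mem_bot] at hwS; exact hwF hwS
      · refine hO.ne (LinearMap.ext fun t => ?_)
        have ht' : t ∈ S := ht ▸ Algebra.mem_top
        simpa using ht' 1 hO.one
    have hll : l ∈ J := by
      have := hpol w hw1 l l
      rw [hl, zero_smul, zero_add, show (0 : K) - ψ (l * w) • l - ψ (l * w) • l =
        (-(2 * ψ (l * w))) • l by module] at this
      exact (Submodule.smul_mem_iff _ (neg_ne_zero.2 (mul_ne_zero h2 hlw))).1 this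
    intro μ hμ
    have := hpol w hw1 l μ
    rw [hl, hμ, zero_smul, zero_smul, add_zero] at this
    have h3 := J.add_mem this (J.smul_mem (ψ (μ * w)) hll)
    rw [show (0 : K) - ψ (l * w) • μ - ψ (μ * w) • l + ψ (μ * w) • l = (-ψ (l * w)) • μ by
      module] at h3
    exact (Submodule.smul_mem_iff _ (neg_ne_zero.2 hlw)).1 h3
  obtain ⟨l, hl0, hl1, hl2⟩ := exists_inverse_off hp hr3 h2 hO.ne hO.one
  refine hl2 (hker _ ?_)
  have h1 : Sk (F := F) 1 l ∈ O := hJH l hl1
  have h2' : Sk (F := F) l 1 ∈ O := by rw [Sk_swap 1 l]; exact O.neg_mem h1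
  have h3 := hscale l⁻¹ l 1 (inv_ne_zero hl0) h2'
  rwa [inv_mul_cancel₀ hl0, mul_one] at h3

end Cfsg.Agent.MaxSub.OrthExt
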