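import Cfsg.Agent.MaxSub.OrthExt.Algebra
import Cfsg.Agent.MaxSub.OrthOverfield.Basic
import Cfsg.Agent.MaxSub.ExtField.Pair
import Cfsg.Agent.GeoClasses.OrthNondeg

/-!
Trace forms of quadratic forms over an extension field: the elements that an overgroup of the
linear group contains, and its elements fixing a hyperplane over the extension pointwise.
-/

set_option autoImplicit false
set_option linter.unusedSectionVars false

namespace Cfsg.Agent.MaxSub.OrthExt

open QuadraticMap Module Cfsg.Agent.Classical Cfsg.Agent.OrthGen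

universe u v w

variable {F : Type u} {K : Type v} {V : Type w} [Field F] [Field K] [Algebra F K] [AddCommGroup V]
  [Module F V] [Module K V] [IsScalarTower F K V] [Finite K] [FiniteDimensional F K]
  [FiniteDimensional K V] {Q : QuadraticForm F V}

/-- The standing hypotheses. -/
structure Setup (QK : QuadraticForm K V) (M : Subgroup (OQ Q)) : Prop where
  two : (2 : F) ≠ 0
  val : ∀ v, Q v = Algebra.trace F K (QK v)
  nondeg : BNondeg QK
  dim : 4 ≤ finrank K V
  prime : (finrank F K).Prime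
  lin : ∀ s : OQ QK, s ∈ commutator (OQ QK) → ∃ g ∈ M, ∀ x, g.1 x = s.1 x

/-- An element of `M` moving along `z` through the coordinate at `z`. -/
def Elt (QK : QuadraticForm K V) (M : Subgroup (OQ Q)) (z : V) (A : K →ₗ[F] K) : Prop :=
  ∃ g ∈ M, ∀ x, g.1 x = x + A (polar QK z x) • z

/-- A non-trivial element of `M` fixing the hyperplane orthogonal to `z` pointwise. -/
def Cent (QK : QuadraticForm K V) (M : Subgroup (OQ Q)) (z : V) : Prop :=
  ∃ g ∈ M, g ≠ 1 ∧ ∀ y, polar QK z y = 0 → g.1 y = y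

/-- All root elements at `z`. -/
def AllSk (QK : QuadraticForm K V) (M : Subgroup (OQ Q)) (z : V) : Prop :=
  ∀ a b : K, Elt QK M z (Sk (F := F) a b)

/-- The linear elements of `M`. -/
def IsLin (K : Type v) [Field K] [Module K V] (g : OQ Q) : Prop :=
  ∀ (k : K) x, g.1 (k • x) = k • g.1 x

lemma exists_two_squares [Finite F] (h2 : (2 : F) ≠ 0) {x y : F} (hx : x ≠ 0) (hy : y ≠ 0)
    (c : F) : ∃ a b : F, a * a * x + b * b * y = c := by
  classical
  have := Fintype.ofFinite F
  obtain ⟨a, b, hab⟩ := FiniteField.exists_root_sum_quadratic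
    (f := Polynomial.C x * Polynomial.X ^ 2) (g := Polynomial.C y * Polynomial.X ^ 2 - Polynomial.C c)
    (Polynomial.degree_C_mul_X_pow 2 hx) (by
      have hd : (Polynomial.C y * Polynomial.X ^ 2).degree = 2 := Polynomial.degree_C_mul_X_pow 2 hy
      have hc : (Polynomial.C c).degree < 2 :=
        lt_of_le_of_lt Polynomial.degree_C_le (by decide)
      rw [Polynomial.degree_sub_eq_left_of_degree_lt (hc.trans_eq hd.symm), hd])
    (FiniteField.odd_card_of_char_ne_two fun h => h2 (by
      haveI := ringChar.of_eq h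
      exact CharTwo.two_eq_zero))
  simp at hab
  exact ⟨a, b, by linear_combination hab⟩

namespace Setup

variable {QK : QuadraticForm K V} {M : Subgroup (OQ Q)} (hS : Setup QK M)
include hS

lemma finiteF : Finite F := Finite.of_injective _ (algebraMap F K).injective

lemma twoK : (2 : K) ≠ 0 := fun h => hS.two (by
  apply (algebraMap F K).injective
  rw [map_ofNat, map_zero]; exact h)

lemma notExc : NotExceptional QK := notExceptional_of_two_ne_zero hS.twoK

lemma sing_iff {x : V} : QK x = 0 ↔ polar QK x x = 0 := by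
  rw [polar_self, two_smul, ← two_mul, mul_eq_zero, or_iff_right hS.twoK]

lemma ext_tr {x y : K} (h : ∀ k, Algebra.trace F K (k * x) = Algebra.trace F K (k * y)) :
    x = y := by
  haveI := hS.finiteF
  refine sub_eq_zero.1 ((traceForm_nondegenerate F K).1 _ fun k => ?_)
  rw [Algebra.traceForm_apply, mul_comm, mul_sub, map_sub, h, sub_self]

lemma exists_tr_ne {a : K} (ha : a ≠ 0) : ∃ c, Algebra.trace F K (c * a) ≠ 0 := by
  by_contra h
  push Not at h
  exact ha (hS.ext_tr fun k => by rw [h, mul_zero, map_zero])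

lemma polar_trace (u v : V) : polar Q u v = Algebra.trace F K (polar QK u v) := by
  simp only [polar, hS.val, map_sub]

lemma polar_smul (k : K) (u v : V) :
    polar Q (k • u) v = Algebra.trace F K (k * polar QK u v) := by
  rw [hS.polar_trace, polar_smul_left, smul_eq_mul]

lemma bnondeg : BNondeg Q := fun x hx => hS.nondeg x fun y => hS.ext_tr fun k => by
  rw [← smul_eq_mul, ← polar_smul_right, ← hS.polar_trace, hx, mul_zero, map_zero]

lemma finiteV : Finite V := Module.finite_of_finite K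

lemma perp_finrank (S : Submodule K V) :
    finrank K (perpSub QK S) = finrank K V - finrank K S := by
  rw [finrank_orthogonal_polar hS.nondeg]

/-- Siegel transformations over the extension. -/
lemma exists_siegel {u a : V} (hu : QK u = 0) (ha : polar QK u a = 0) :
    ∃ g ∈ M, ∀ x, g.1 x =
      x + polar QK u x • a - polar QK a x • u - (QK a * polar QK u x) • u := by
  haveI := hS.finiteF
  haveI := hS.finiteV
  have h' : polar QK u ((2 : K)⁻¹ • a) = 0 := by rw [polar_smul_right, ha, smul_zero]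
  have := Forms.mul_self_mem_commutator hS.nondeg hS.notExc (siegel QK hu h')
  rw [siegel_mul, siegel_congr QK _ _ hu ha rfl
    (show (2 : K)⁻¹ • a + (2 : K)⁻¹ • a = a by
      rw [← two_smul K, smul_inv_smul₀ hS.twoK])] at this
  obtain ⟨g, hg, hgx⟩ := hS.lin _ this
  exact ⟨g, hg, fun x => by rw [hgx, siegel_apply]⟩

lemma exists_coord {z : V} (hz : z ≠ 0) (H : K) : ∃ x, polar QK z x = H := by
  obtain ⟨y, hy⟩ : ∃ y, polar QK z y ≠ 0 := by
    by_contra h
    push Not at h
    exact hz (hS.nondeg z h)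
  exact ⟨(H / polar QK z y) • y, by
    rw [polar_smul_right, smul_eq_mul, div_mul_cancel₀ _ hy]⟩

lemma mem_line_of_perp {z w : V} (h : ∀ y, polar QK z y = 0 → polar QK w y = 0) :
    ∃ c : K, c • z = w := by
  by_contra hc
  obtain ⟨y, hy, hwy⟩ := OrthOverfield.exists_polar_ne hS.nondeg (S := K ∙ z) (z := w)
    (fun hw => hc (Submodule.mem_span_singleton.1 hw))
  exact hwy (h y (hy z (Submodule.mem_span_singleton_self z)))

lemma exists_dual₂ (z x : V) {l : V} (hl : l ∉ Submodule.span K {z, x}) :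
    ∃ a, polar QK z a = 0 ∧ polar QK x a = 0 ∧ polar QK l a = 1 := by
  obtain ⟨y, hy, hly⟩ := OrthOverfield.exists_polar_ne hS.nondeg hl
  refine ⟨(polar QK l y)⁻¹ • y, ?_, ?_, ?_⟩ <;> rw [polar_smul_right, smul_eq_mul]
  · rw [show polar QK z y = 0 from hy z (Submodule.subset_span (Set.mem_insert _ _)), mul_zero]
  · rw [show polar QK x y = 0 from hy x (Submodule.subset_span (Set.mem_insert_of_mem _ rfl)), mul_zero]
  · exact inv_mul_cancel₀ hly

lemma exists_dual {z l : V} (hl : ∀ c : K, c • z ≠ l) :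
    ∃ a, polar QK z a = 0 ∧ polar QK l a = 1 := by
  obtain ⟨a, h1, -, h3⟩ := hS.exists_dual₂ z z (l := l) (by
    rw [Set.pair_eq_singleton, Submodule.mem_span_singleton]
    rintro ⟨c, hc⟩
    exact hl c hc)
  exact ⟨a, h1, h3⟩

lemma exists_perp₂_not_mem (z x : V) :
    ∃ a, polar QK z a = 0 ∧ polar QK x a = 0 ∧ ∀ c : K, c • z ≠ a := by
  have h1 : finrank K (Submodule.span K ({z, x} : Set V)) ≤ 2 := by
    classical
    have h0 := finrank_span_finset_le_card (R := K) ({z, x} : Finset V)
    unfold Set.finrank at h0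
    rw [Finset.coe_pair] at h0
    exact h0.trans Finset.card_le_two
  have h2 := hS.perp_finrank (Submodule.span K ({z, x} : Set V))
  have h3 : ¬ perpSub QK (Submodule.span K ({z, x} : Set V)) ≤ K ∙ z := fun hle => by
    have h4 := Submodule.finrank_mono hle
    have h5 := finrank_span_le_card ({z} : Set V) (R := K)
    have := hS.dim
    simp at h5
    omega
  obtain ⟨a, ha, hna⟩ := SetLike.not_le_iff_exists.1 h3
  exact ⟨a, ha z (Submodule.subset_span (Set.mem_insert _ _)),
    ha x (Submodule.subset_span (Set.mem_insert_of_mem _ rfl)),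
    fun c hc => hna (Submodule.mem_span_singleton.2 ⟨c, hc⟩)⟩

lemma exists_anisotropic_perp₂ {e f : V} (he : QK e = 0) (hf : QK f = 0)
    (hef : polar QK e f ≠ 0) :
    ∃ x y, polar QK e x = 0 ∧ polar QK f x = 0 ∧ polar QK e y = 0 ∧ polar QK f y = 0 ∧
      polar QK x y = 0 ∧ QK x ≠ 0 ∧ QK y ≠ 0 := by
  have hee : polar QK e e = 0 := hS.sing_iff.1 he
  have hff : polar QK f f = 0 := hS.sing_iff.1 hf
  have hfe : polar QK f e ≠ 0 := by rwa [polar_comm]
  -- projection to the orthogonal of the plane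
  have hproj : ∀ v, ∃ v', polar QK e v' = 0 ∧ polar QK f v' = 0 ∧
      ∀ y, polar QK e y = 0 → polar QK f y = 0 → polar QK y v' = polar QK y v := by
    intro v
    refine ⟨v - (polar QK f v / polar QK f e) • e - (polar QK e v / polar QK e f) • f,
      ?_, ?_, fun y hy hy' => ?_⟩
    · rw [polar_sub_right, polar_sub_right, polar_smul_right, polar_smul_right, hee, smul_zero,
        sub_zero, smul_eq_mul, div_mul_cancel₀ _ hef, sub_self]
    · rw [polar_sub_right, polar_sub_right, polar_smul_right, polar_smul_right, hff, smul_zero,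
        sub_zero, smul_eq_mul, div_mul_cancel₀ _ hfe, sub_self]
    · rw [polar_sub_right, polar_sub_right, polar_smul_right, polar_smul_right, polar_comm QK y e,
        polar_comm QK y f, hy, hy', smul_zero, smul_zero, sub_zero, sub_zero]
  obtain ⟨w, hw1, hw2, hwn⟩ := hS.exists_perp₂_not_mem e f
  have hw0 : w ≠ 0 := fun h => hwn 0 (by rw [h, zero_smul])
  obtain ⟨y, hy⟩ : ∃ y, polar QK w y ≠ 0 := by
    by_contra h
    push Not at h
    exact hw0 (hS.nondeg w h)
  obtain ⟨y', hy1, hy2, hy3⟩ := hproj y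
  obtain ⟨x, hx1, hx2, hx⟩ : ∃ x, polar QK e x = 0 ∧ polar QK f x = 0 ∧ QK x ≠ 0 := by
    by_contra h
    push Not at h
    have h3 := h (w + y') (by rw [polar_add_right, hw1, hy1, add_zero])
      (by rw [polar_add_right, hw2, hy2, add_zero])
    rw [qf_add, h w hw1 hw2, h y' hy1 hy2, zero_add, zero_add, hy3 w hw1 hw2] at h3
    exact hy h3
  have hxx : polar QK x x ≠ 0 := fun h => hx (hS.sing_iff.2 h)
  -- the orthogonal of `e`, `f`, `x`
  have hxn : ∀ z, ∃ z', polar QK e z' = 0 ∧ polar QK f z' = 0 ∧ polar QK x z' = 0 ∧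
      ∀ y, polar QK e y = 0 → polar QK f y = 0 → polar QK x y = 0 →
        polar QK y z' = polar QK y z := by
    intro z
    obtain ⟨z₁, h1, h2, h3⟩ := hproj z
    refine ⟨z₁ - (polar QK x z₁ / polar QK x x) • x, ?_, ?_, ?_, fun y hy hy' hy'' => ?_⟩
    · rw [polar_sub_right, polar_smul_right, hx1, h1, smul_zero, sub_zero]
    · rw [polar_sub_right, polar_smul_right, hx2, h2, smul_zero, sub_zero]
    · rw [polar_sub_right, polar_smul_right, smul_eq_mul, div_mul_cancel₀ _ hxx, sub_self]
    · rw [polar_sub_right, polar_smul_right, h3 y hy hy', polar_comm QK y x, hy'', smul_zero,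
        sub_zero]
  have h3 : finrank K (Submodule.span K ({e, f, x} : Set V)) ≤ 3 := by
    classical
    have h0 := finrank_span_finset_le_card (R := K) ({e, f, x} : Finset V)
    unfold Set.finrank at h0
    have he' : (({e, f, x} : Finset V) : Set V) = {e, f, x} := by ext; simp
    rw [he'] at h0
    exact h0.trans Finset.card_le_three
  have h4 := hS.perp_finrank (Submodule.span K ({e, f, x} : Set V))
  have hdim := hS.dim
  obtain ⟨t, ht, ht0⟩ := (Submodule.ne_bot_iff (perpSub QK (Submodule.span K ({e, f, x} : Set V)))).1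
    (fun h => by rw [h, finrank_bot] at h4; omega)
  have ht1 : polar QK e t = 0 := ht e (Submodule.subset_span (by simp))
  have ht2 : polar QK f t = 0 := ht f (Submodule.subset_span (by simp))
  have ht3 : polar QK x t = 0 := ht x (Submodule.subset_span (by simp))
  obtain ⟨u, hu⟩ : ∃ u, polar QK t u ≠ 0 := by
    by_contra h
    push Not at h
    exact ht0 (hS.nondeg t h)
  obtain ⟨u', hu1, hu2, hu3, hu4⟩ := hxn u
  by_contra hcon
  push Not at hcon
  have e1 := hcon x (t + u') hx1 hx2 (by rw [polar_add_right, ht1, hu1, add_zero])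
    (by rw [polar_add_right, ht2, hu2, add_zero]) (by rw [polar_add_right, ht3, hu3, add_zero]) hx
  rw [qf_add, hcon x t hx1 hx2 ht1 ht2 ht3 hx, hcon x u' hx1 hx2 hu1 hu2 hu3 hx, zero_add,
    zero_add, hu4 t ht1 ht2 ht3] at e1
  exact hu e1

/-- The orthogonal of a hyperbolic plane takes every non-zero value. -/
lemma exists_value {e f : V} (he : QK e = 0) (hf : QK f = 0) (hef : polar QK e f ≠ 0) (c : K) :
    ∃ x, polar QK e x = 0 ∧ polar QK f x = 0 ∧ QK x = c := by
  obtain ⟨x, y, hx1, hx2, hy1, hy2, hxy, hx, hy⟩ := hS.exists_anisotropic_perp₂ he hf hef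
  obtain ⟨a, b, hab⟩ := exists_two_squares hS.twoK hx hy c
  refine ⟨a • x + b • y, ?_, ?_, ?_⟩
  · rw [polar_add_right, polar_smul_right, polar_smul_right, hx1, hy1]; simp
  · rw [polar_add_right, polar_smul_right, polar_smul_right, hx2, hy2]; simp
  · rw [qf_add, QuadraticMap.map_smul, QuadraticMap.map_smul, polar_smul_left, polar_smul_right,
      hxy]
    simpa using hab

lemma exists_partner {z : V} (hz : QK z = 0) (hz0 : z ≠ 0) :
    ∃ f, QK f = 0 ∧ polar QK z f = 1 :=
  Forms.exists_singular_partner hS.nondeg hz hz0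

/-- Scalings of a hyperbolic pair. -/
lemma exists_levi {e f e₁ e₂ : V} (he : QK e = 0) (hf : QK f = 0) (hef : polar QK e f ≠ 0)
    {l : K} (hl : l ≠ 0) (he₁ : polar QK e e₁ = 0) (hf₁ : polar QK f e₁ = 0)
    (he₂ : polar QK e e₂ = 0) (hf₂ : polar QK f e₂ = 0) (hq₁ : QK e₁ = 1) (hq₂ : QK e₂ = l) :
    ∃ g ∈ M, IsLin K g ∧ g.1 e = l • e ∧ g.1 f = l⁻¹ • f ∧
      ∀ x, polar QK e x = 0 → polar QK f x = 0 → g.1 x =
        (x - polar QK e₂ x • l⁻¹ • e₂) -
          polar QK e₁ (x - polar QK e₂ x • l⁻¹ • e₂) • e₁ := by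
  haveI := hS.finiteF
  haveI := hS.finiteV
  obtain ⟨f', hf'⟩ : ∃ f', f' = (polar QK e f)⁻¹ • f := ⟨_, rfl⟩
  have hff' : QK f' = 0 := by rw [hf', QuadraticMap.map_smul, hf, smul_zero]
  have hef' : polar QK e f' = 1 := by
    rw [hf', polar_smul_right, smul_eq_mul, inv_mul_cancel₀ hef]
  have hee : polar QK e e = 0 := hS.sing_iff.1 he
  have hf'f' : polar QK f' f' = 0 := hS.sing_iff.1 hff'
  have h1 : QK (e - f') = -1 := by rw [qf_sub, he, hff', hef']; ring
  have h2 : QK (e - l • f') = -l := by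
    rw [qf_sub, QuadraticMap.map_smul, he, hff', polar_smul_right, hef']; simp
  let a : {x : V // QK x ≠ 0} := ⟨e - f', by rw [h1]; exact neg_ne_zero.2 one_ne_zero⟩
  let b : {x : V // QK x ≠ 0} := ⟨e - l • f', by rw [h2]; exact neg_ne_zero.2 hl⟩
  let c : {x : V // QK x ≠ 0} := ⟨e₁, by rw [hq₁]; exact one_ne_zero⟩
  let d : {x : V // QK x ≠ 0} := ⟨e₂, by rw [hq₂]; exact hl⟩
  have hmem : Forms.refls QK [a, b, c, d] ∈ commutator (OQ QK) := by
    rw [Forms.refls_mem_commutator_iff hS.nondeg hS.notExc]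
    refine ⟨⟨2, rfl⟩, ⟨l, ?_⟩⟩
    simp [a, b, c, d, h1, h2, hq₁, hq₂]
  obtain ⟨g, hg, hgx⟩ := hS.lin _ hmem
  have hf'₁ : polar QK f' e₁ = 0 := by rw [hf', polar_smul_left, hf₁, smul_zero]
  have hf'₂ : polar QK f' e₂ = 0 := by rw [hf', polar_smul_left, hf₂, smul_zero]
  refine ⟨g, hg, fun k x => ?_, ?_, ?_, fun x hx hx' => ?_⟩
  · rw [hgx, hgx, LinearEquiv.map_smul]
  · rw [hgx]
    simp only [Forms.refls_cons, Forms.refls_nil, mul_one, Subgroup.coe_mul, LinearEquiv.mul_apply,
      reflQ_apply, a, b, c, d, h1, h2, hq₁, hq₂, polar_sub_right, polar_sub_left, polar_smul_left,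
      polar_smul_right, smul_eq_mul, hee, hef', hf'f', polar_comm QK e₁ e, polar_comm QK e₂ e, he₁,
      he₂, polar_comm QK f' e]
    match_scalars <;> field_simp <;> ring
  · have hfe : f = polar QK e f • f' := by rw [hf', smul_inv_smul₀ hef]
    have key : g.1 f' = l⁻¹ • f' := by
      rw [hgx]
      simp only [Forms.refls_cons, Forms.refls_nil, mul_one, Subgroup.coe_mul,
        LinearEquiv.mul_apply, reflQ_apply, a, b, c, d, h1, h2, hq₁, hq₂, polar_sub_right,
        polar_sub_left, polar_smul_left, polar_smul_right, smul_eq_mul, hee, hef', hf'f',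
        polar_comm QK e₁ f', polar_comm QK e₂ f', hf'₁, hf'₂, polar_comm QK f' e]
      match_scalars <;> field_simp <;> ring
    rw [hgx] at key
    rw [hgx, hfe, LinearEquiv.map_smul, key, smul_comm]
  · have hx'' : polar QK f' x = 0 := by rw [hf', polar_smul_left, hx', smul_zero]
    rw [hgx]
    simp only [Forms.refls_cons, Forms.refls_nil, mul_one, Subgroup.coe_mul, LinearEquiv.mul_apply,
      reflQ_apply, a, b, c, d, h1, h2, hq₁, hq₂, polar_sub_right, polar_sub_left, polar_smul_left,
      polar_smul_right, smul_eq_mul, hx, hx'', he₁, hf'₁, he₂, hf'₂]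
    match_scalars <;> field_simp <;> ring

lemma exists_scale {z : V} (hz : QK z = 0) (hz0 : z ≠ 0) {l : K} (hl : l ≠ 0) :
    ∃ g ∈ M, IsLin K g ∧ g.1 z = l • z := by
  obtain ⟨f, hf, hzf⟩ := hS.exists_partner hz hz0
  have hne : polar QK z f ≠ 0 := by rw [hzf]; exact one_ne_zero
  obtain ⟨e₁, h1, h2, h3⟩ := hS.exists_value hz hf hne 1
  obtain ⟨e₂, h4, h5, h6⟩ := hS.exists_value hz hf hne l
  obtain ⟨g, hg, hlin, hgz, -⟩ := hS.exists_levi hz hf hne hl h1 h2 h4 h5 h3 h6
  exact ⟨g, hg, hlin, hgz⟩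

/-- The linear elements of `M` are transitive on singular vectors. -/
lemma exists_trans {z v : V} (hz : QK z = 0) (hz0 : z ≠ 0) (hv : QK v = 0) (hv0 : v ≠ 0) :
    ∃ g ∈ M, IsLin K g ∧ g.1 z = v := by
  obtain ⟨u, hu, hzu, hvu⟩ : ∃ u, QK u = 0 ∧ polar QK z u ≠ 0 ∧ polar QK v u ≠ 0 := by
    obtain ⟨f, hf, hzf⟩ := hS.exists_partner hz hz0
    obtain ⟨f', hf', hvf⟩ := hS.exists_partner hv hv0
    have hzz : polar QK z z = 0 := hS.sing_iff.1 hz
    by_cases h1 : polar QK v f = 0
    swap
    · exact ⟨f, hf, by rw [hzf]; exact one_ne_zero, h1⟩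
    by_cases h2 : polar QK z f' = 0
    swap
    · exact ⟨f', hf', h2, by rw [hvf]; exact one_ne_zero⟩
    by_cases h3 : polar QK z v = 0
    · refine ⟨f + (f' - polar QK f f' • z), ?_, ?_, ?_⟩
      · rw [qf_add, qf_sub, polar_sub_right, polar_smul_right, polar_smul_right,
          QuadraticMap.map_smul, hf, hf', hz, polar_comm QK f' z, h2, polar_comm QK f z, hzf]
        simp
      · simp [polar_add_right, polar_sub_right, polar_smul_right, hzf, h2, hzz]
      · simp [polar_add_right, polar_sub_right, polar_smul_right, hvf, h1, polar_comm QK v z, h3]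
    · obtain ⟨e, he1, he2, he⟩ := hS.exists_value hz hv h3 1
      obtain ⟨c, hc⟩ : ∃ c, c = -1 / polar QK z v := ⟨_, rfl⟩
      have hc0 : c ≠ 0 := by rw [hc]; exact div_ne_zero (neg_ne_zero.2 one_ne_zero) h3
      refine ⟨z + c • v + e, ?_, ?_, ?_⟩
      · rw [qf_add, qf_add, QuadraticMap.map_smul, polar_add_left, polar_smul_left,
          polar_smul_right, hz, hv, he1, he2, he, hc]
        simp only [smul_eq_mul]
        field_simp
        ring
      · simpa [polar_add_right, polar_smul_right, hzz, he1] using mul_ne_zero hc0 h3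
      · simpa [polar_add_right, polar_smul_right, hS.sing_iff.1 hv, he2, polar_comm QK v z]
          using h3
  obtain ⟨z', hz'⟩ : ∃ z', z' = (polar QK u z)⁻¹ • z := ⟨_, rfl⟩
  obtain ⟨v', hv'⟩ : ∃ v', v' = (polar QK u v)⁻¹ • v := ⟨_, rfl⟩
  rw [polar_comm] at hzu hvu
  obtain ⟨a, ha, -, -, hmap⟩ := exists_siegel_pair (Q := QK) hu (y := z') (z := v')
    (by rw [hz', QuadraticMap.map_smul, hz, smul_zero])
    (by rw [hv', QuadraticMap.map_smul, hv, smul_zero])
    (by rw [hz', polar_smul_right, smul_eq_mul, inv_mul_cancel₀ hzu])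
    (by rw [hv', polar_smul_right, smul_eq_mul, inv_mul_cancel₀ hvu])
  obtain ⟨g, hg, hgx⟩ := hS.exists_siegel hu ha
  have hgx' : ∀ x, g.1 x = (siegel QK hu ha).1 x := fun x => by rw [hgx, siegel_apply]
  obtain ⟨s, hs, hslin, hsv⟩ := hS.exists_scale hv hv0 (l := polar QK u v / polar QK u z)
    (div_ne_zero hvu hzu)
  refine ⟨s * g, mul_mem hs hg, fun k x => ?_, ?_⟩
  · rw [Subgroup.coe_mul, LinearEquiv.mul_apply, LinearEquiv.mul_apply, hgx', hgx',
      LinearEquiv.map_smul, hslin]
  · rw [Subgroup.coe_mul, LinearEquiv.mul_apply, show z = polar QK u z • z' by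
      rw [hz', smul_inv_smul₀ hzu], hgx', LinearEquiv.map_smul, hmap, hv', smul_smul, hslin, hsv,
      smul_smul]
    convert one_smul K v using 2
    field_simp

lemma polar_map_of_lin {g : OQ Q} (hg : IsLin K g) (u v : V) :
    polar QK (g.1 u) (g.1 v) = polar QK u v := hS.ext_tr fun k => by
  rw [← hS.polar_smul, ← hS.polar_smul, ← hg, OQ_polar]

lemma elt_map {g : OQ Q} (hg : g ∈ M) (hlin : IsLin K g) {z : V} {A : K →ₗ[F] K}
    (hA : Elt QK M z A) : Elt QK M (g.1 z) A := by
  obtain ⟨e, he, hex⟩ := hA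
  refine ⟨g * e * g⁻¹, mul_mem (mul_mem hg he) (inv_mem hg), fun x => ?_⟩
  obtain ⟨y, rfl⟩ := g.1.surjective x
  rw [hS.polar_map_of_lin hlin]
  have : g⁻¹.1 (g.1 y) = y := g.1.symm_apply_apply y
  rw [Subgroup.coe_mul, Subgroup.coe_mul, LinearEquiv.mul_apply, LinearEquiv.mul_apply, this, hex,
    map_add, hlin]

lemma allSk_all {z : V} (hz : QK z = 0) (hz0 : z ≠ 0) (h : AllSk QK M z) {v : V} (hv : QK v = 0)
    (hv0 : v ≠ 0) : AllSk QK M v := fun a b => by
  obtain ⟨g, hg, hlin, rfl⟩ := hS.exists_trans hz hz0 hv hv0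
  exact hS.elt_map hg hlin (h a b)

/-- The maps of the elements at `z`. -/
def osub {z : V} (hz : QK z = 0) (hz0 : z ≠ 0) : Submodule F (K →ₗ[F] K) where
  carrier := {A | Elt QK M z A}
  add_mem' {A B} hA hB := by
    obtain ⟨a, ha, hax⟩ := hA
    obtain ⟨b, hb, hbx⟩ := hB
    refine ⟨a * b, mul_mem ha hb, fun x => ?_⟩
    rw [Subgroup.coe_mul, LinearEquiv.mul_apply, hax, hbx, polar_add_right, polar_smul_right,
      hS.sing_iff.1 hz, smul_zero, add_zero, LinearMap.add_apply, add_smul]
    abel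
  zero_mem' := ⟨1, one_mem M, fun x => by simp⟩
  smul_mem' := by
    haveI := hS.finiteF
    have hsq : ∀ (t : F) (A : K →ₗ[F] K), Elt QK M z A → Elt QK M z ((t * t) • A) := by
      intro t A hA
      rcases eq_or_ne t 0 with rfl | ht
      · exact ⟨1, one_mem M, fun x => by simp⟩
      have ht' : algebraMap F K t ≠ 0 := by simpa using ht
      obtain ⟨s, hs, hlin, hsz⟩ := hS.exists_scale hz hz0 ht'
      obtain ⟨e, he, hex⟩ := hS.elt_map hs hlin hA
      refine ⟨e, he, fun x => ?_⟩
      rw [hex, hsz, polar_smul_left, smul_smul, smul_eq_mul, ← Algebra.smul_def, LinearMap.map_smul]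
      congr 2
      rw [mul_comm _ (algebraMap F K t), ← Algebra.smul_def, smul_smul]
      rfl
    intro c A hA
    obtain ⟨a, b, hab⟩ := exists_two_squares hS.two one_ne_zero one_ne_zero c
    rw [mul_one, mul_one] at hab
    rw [← hab, add_smul]
    obtain ⟨g, hg, hgx⟩ := hsq a A hA
    obtain ⟨g', hg', hgx'⟩ := hsq b A hA
    refine ⟨g * g', mul_mem hg hg', fun x => ?_⟩
    rw [Subgroup.coe_mul, LinearEquiv.mul_apply, hgx, hgx', polar_add_right, polar_smul_right,
      hS.sing_iff.1 hz, smul_zero, add_zero, LinearMap.add_apply, add_smul]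
    abel

lemma osub_scale {z : V} (hz : QK z = 0) (hz0 : z ≠ 0) {A : K →ₗ[F] K} (hA : A ∈ hS.osub hz hz0)
    {l : K} (hl : l ≠ 0) :
    LinearMap.mulLeft F l ∘ₗ A ∘ₗ LinearMap.mulLeft F l ∈ hS.osub hz hz0 := by
  obtain ⟨s, hs, hlin, hsz⟩ := hS.exists_scale hz hz0 hl
  obtain ⟨e, he, hex⟩ := hS.elt_map hs hlin hA
  refine ⟨e, he, fun x => ?_⟩
  rw [hex, hsz, polar_smul_left, smul_smul, smul_eq_mul, mul_comm _ l]
  rfl

/-- An element fixing the orthogonal of `z` is given by a skew map. -/
lemma cent_elt {z : V} (hz : QK z = 0) (hz0 : z ≠ 0) (h : Cent QK M z) :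
    ∃ A : K →ₗ[F] K, IsSkew A ∧ A ≠ 0 ∧ Elt QK M z A := by
  obtain ⟨g, hg, hg1, hfix⟩ := h
  obtain ⟨f, -, hzf⟩ := hS.exists_partner hz hz0
  have hline : ∀ x, ∃ c : K, c • z = g.1 x - x := by
    intro x
    refine hS.mem_line_of_perp fun y hy => hS.ext_tr fun k => ?_
    rw [mul_zero, map_zero, ← smul_eq_mul, ← polar_smul_right, ← hS.polar_trace, polar_sub_left]
    conv_lhs =>
      arg 1
      rw [← hfix (k • y) (by rw [polar_smul_right, hy, smul_zero]), OQ_polar]
    rw [sub_self]
  let A : K →ₗ[F] K :=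
    { toFun := fun H => polar QK f (g.1 (H • f) - H • f)
      map_add' := fun H H' => by
        rw [add_smul, map_add, ← polar_add_right]; congr 1; abel
      map_smul' := fun t H => by
        rw [smul_assoc, map_smul, ← smul_sub, RingHom.id_apply, ← algebraMap_smul K t,
          polar_smul_right, smul_eq_mul, ← Algebra.smul_def] }
  have hA : ∀ H, A H = polar QK f (g.1 (H • f) - H • f) := fun H => rfl
  have hrep : ∀ x, g.1 x = x + A (polar QK z x) • z := by
    intro x
    obtain ⟨c, hc⟩ := hline (polar QK z x • f)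
    have e := hfix (x - polar QK z x • f)
      (by rw [polar_sub_right, polar_smul_right, hzf, smul_eq_mul, mul_one, sub_self])
    rw [map_sub, sub_eq_iff_eq_add] at e
    rw [hA, ← hc, polar_smul_right, polar_comm QK f z, hzf, smul_eq_mul, mul_one, hc, e]
    abel
  refine ⟨A, fun k l => ?_, fun h0 => hg1 ?_, g, hg, hrep⟩
  · have e0 : ∀ H, Algebra.trace F K (H * A H) = 0 := by
      intro H
      obtain ⟨x, hx⟩ := hS.exists_coord hz0 H
      have := OQ_map_app g x
      rw [hrep, hx, hS.val, hS.val, qf_add, QuadraticMap.map_smul, hz, polar_smul_right,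
        polar_comm QK x z, hx, smul_zero, add_zero, map_add, add_eq_left, smul_eq_mul,
        mul_comm] at this
      exact this
    have e := e0 (k + l)
    rw [map_add A, add_mul, mul_add, mul_add, map_add, map_add, map_add, e0, e0] at e
    linear_combination e
  · refine Subtype.ext (LinearEquiv.ext fun x => ?_)
    rw [hrep, h0, LinearMap.zero_apply, zero_smul, add_zero]
    rfl

end Setup

end Cfsg.Agent.MaxSub.OrthExt
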