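import Cfsg.Agent.MaxSub.OrthExt.Pairs
import Cfsg.Agent.MaxSub.OrthOverfield.Main

/-!
Overgroups in the orthogonal group of the linear group of a trace form: anything outside the
normaliser gives the whole commutator subgroup.
-/

set_option autoImplicit false
set_option linter.unusedSectionVars false

namespace Cfsg.Agent.MaxSub.OrthExt

open QuadraticMap Module Cfsg.Agent.Classical Cfsg.Agent.OrthGen
open Cfsg.Agent.MaxSub.ExtField (kline mem_kline self_mem_kline smul_mem_kline finrank_kline)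
open Cfsg.Agent.MaxSub.OrthOverfield (rootSpace self_mem_rootSpace map_rootSpace)

universe u v w

variable {F : Type u} {K : Type v} {V : Type w} [Field F] [Field K] [Algebra F K] [AddCommGroup V]
  [Module F V] [Module K V] [IsScalarTower F K V] [Finite K] [FiniteDimensional F K]
  [FiniteDimensional K V] {Q : QuadraticForm F V}

lemma exists_not_range (hr : 2 ≤ finrank F K) : ∃ k : K, k ∉ Set.range (algebraMap F K) := by
  by_contra hall
  push Not at hall
  have hle := LinearMap.finrank_range_le (Algebra.linearMap F K)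
  rw [LinearMap.range_eq_top.2 fun c => Set.mem_range.1 (hall c), finrank_top,
    Module.finrank_self] at hle
  omega

lemma exists_tr_zero_not_mem (hr : 3 ≤ finrank F K) (S : Submodule F K) (hS : finrank F S ≤ 1) :
    ∃ y ∉ S, Algebra.trace F K y = 0 := by
  by_contra h
  push Not at h
  have hle : LinearMap.ker (Algebra.trace F K) ≤ S := fun y hy => by
    by_contra hn
    exact h y hn hy
  have e1 := Submodule.finrank_mono hle
  have e2 := LinearMap.finrank_range_add_finrank_ker (Algebra.trace F K)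
  have e3 := (LinearMap.range (Algebra.trace F K)).finrank_le
  rw [Module.finrank_self] at e3
  omega

namespace Setup

variable {QK : QuadraticForm K V} {M : Subgroup (OQ Q)} (hS : Setup QK M)
include hS

lemma sing_val {p : V} (hp : QK p = 0) : Q p = 0 := by rw [hS.val, hp, map_zero]

lemma finrankF : finrank F V = finrank F K * finrank K V :=
  (Module.finrank_mul_finrank F K V).symm

/-- A vector whose image is again singular over the extension. -/
lemma exists_good (g : OQ Q) : ∃ z, z ≠ 0 ∧ QK z = 0 ∧ QK (g.1 z) = 0 := by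
  classical
  haveI := hS.finiteF
  haveI := hS.finiteDim
  obtain ⟨C, hC⟩ := (Submodule.span F {(1 : K)}).exists_isCompl
  have hCr : finrank F C + 1 = finrank F K := by
    have := Submodule.finrank_add_eq_of_isCompl hC
    rw [finrank_span_singleton one_ne_zero] at this
    omega
  let b := Module.finBasis F K
  let c := Module.finBasis F C
  let β₀ : K → LinearMap.BilinForm F V := fun k =>
    LinearMap.mk₂ F (fun x y => Algebra.trace F K (k * polar QK x y))
      (fun x x' y => by rw [polar_add_left, mul_add, map_add])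
      (fun t x y => by
        rw [← algebraMap_smul K t, polar_smul_left, smul_eq_mul, mul_left_comm, ← Algebra.smul_def,
          map_smul])
      (fun x y y' => by rw [polar_add_right, mul_add, map_add])
      (fun t x y => by
        rw [← algebraMap_smul K t, polar_smul_right, smul_eq_mul, mul_left_comm, ← Algebra.smul_def,
          map_smul])
  let β : Fin (finrank F K) ⊕ Fin (finrank F C) → LinearMap.BilinForm F V :=
    Sum.elim (fun i => β₀ (b i))
      (fun j => LinearMap.compl₁₂ (β₀ (c j : K)) g.1.toLinearMap g.1.toLinearMap)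
  obtain ⟨z, hz0, hz⟩ := exists_common_zero (W := V) (fun _ => 0) β (by
    rw [Fintype.card_sum, Fintype.card_fin, Fintype.card_fin, hS.finrankF]
    have := Nat.mul_le_mul_left (finrank F K) hS.dim
    omega)
  have h1 : QK z = 0 := hS.sing_iff.2 (hS.ext_tr fun k => by
    have e : (Algebra.trace F K) ∘ₗ LinearMap.mulRight F (polar QK z z) = 0 := b.ext fun i => by
      have := hz (Sum.inl i)
      rw [LinearMap.zero_apply, zero_add] at this
      exact this
    rw [mul_zero, map_zero]
    exact LinearMap.congr_fun e k)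
  refine ⟨z, hz0, h1, hS.sing_iff.2 (hS.ext_tr fun k => ?_)⟩
  obtain ⟨s, hs, d, hd, rfl⟩ := Submodule.mem_sup.1
    (show k ∈ Submodule.span F {(1 : K)} ⊔ C by rw [hC.sup_eq_top]; trivial)
  obtain ⟨t, rfl⟩ := Submodule.mem_span_singleton.1 hs
  have e : ((Algebra.trace F K) ∘ₗ LinearMap.mulRight F (polar QK (g.1 z) (g.1 z))) ∘ₗ
      C.subtype = 0 := c.ext fun j => by
    have := hz (Sum.inr j)
    rw [LinearMap.zero_apply, zero_add] at this
    exact this
  rw [mul_zero, map_zero, add_mul, map_add, smul_mul_assoc, one_mul, map_smul, ← hS.polar_trace,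
    OQ_polar, hS.polar_trace, hS.sing_iff.1 h1, map_zero, smul_zero, zero_add]
  exact LinearMap.congr_fun e ⟨d, hd⟩

/-- Something outside the normaliser gives all root elements. -/
theorem allSk_of_outside {g : OQ Q} (hg : g ∈ M)
    (hout : ¬ ∀ k : K, ∃ k' : K, ∀ x, g.1 (k • x) = k' • g.1 x) :
    ∀ v, QK v = 0 → v ≠ 0 → AllSk QK M v := by
  obtain ⟨v, hv, hv0, h⟩ : ∃ v, QK v = 0 ∧ v ≠ 0 ∧ AllSk QK M v := by
    obtain ⟨z, hz0, hz, hgz⟩ := hS.exists_good g
    have hgz0 : g.1 z ≠ 0 := fun e => hz0 (g.1.map_eq_zero_iff.1 e)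
    by_cases hline : img K g z = kline F K (g.1 z)
    · have hl : ∀ k : K, ∃ k' : K, g.1 (k • z) = k' • g.1 z := fun k => by
        obtain ⟨k', hk'⟩ := mem_kline.1 (hline.le (mem_img.2 ⟨k, rfl⟩))
        exact ⟨k', hk'.symm⟩
      rcases hS.key hg hz hz0 hgz hgz0 hl with hC | ⟨θ, hθ⟩
      · exact hS.allSk_of_cent hgz hgz0 hC
      rcases hS.cent_or_semilinear hg hz hz0 hgz θ hθ with hC | hall
      · exact hS.allSk_of_cent hz hz0 hC
      · exact absurd (fun k => ⟨θ k, hall k⟩) hout
    · exact hS.allSk_of_pair hg hz hz0 hgz hgz0 hline ((Submodule.ne_bot_iff _).2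
        ⟨g.1 z, ⟨mem_img.2 ⟨1, by rw [one_smul]⟩, self_mem_kline _⟩, hgz0⟩)
  exact fun w hw hw0 => hS.allSk_all hv hv0 h hw hw0

variable (hR : ∀ v, QK v = 0 → v ≠ 0 → AllSk QK M v)
include hR

lemma kline_mem {p : V} (hp : QK p = 0) (hp0 : p ≠ 0) (k : K) :
    k • p ∈ rootSpace M (hS.sing_val hp) := by
  have hkp : ∀ k : K, QK (k • p) = 0 := fun k => by
    rw [QuadraticMap.map_smul, hp, smul_zero]
  refine ⟨by rw [hS.polar_trace, polar_smul_right, hS.sing_iff.1 hp, smul_zero, map_zero],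
    fun t h => ?_⟩
  obtain ⟨g, hg, hgx⟩ := hR p hp hp0 1 (algebraMap F K t * k)
  convert hg using 1
  refine Subtype.ext (LinearEquiv.ext fun x => ?_)
  have e : t • k • p = (algebraMap F K t * k) • p := by rw [mul_smul, algebraMap_smul]
  rw [siegel_apply, hgx, e, hS.sing_val (hkp _), hS.polar_smul, hS.polar_trace, Sk_apply, one_mul,
    sub_smul, smul_assoc, smul_assoc, one_smul, zero_mul, zero_smul, sub_zero, add_sub_assoc]

/-- A value off zero gives the orthogonal over the extension. -/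
lemma perp_mem {p w : V} (hp : QK p = 0) (hp0 : p ≠ 0) (hw : w ∈ rootSpace M (hS.sing_val hp))
    (hpw : polar QK p w ≠ 0) {x : V} (hx : polar QK p x = 0) :
    x ∈ rootSpace M (hS.sing_val hp) := by
  have hpx : polar QK p ((polar QK p w)⁻¹ • x) = 0 := by
    rw [polar_smul_right, hx, smul_zero]
  obtain ⟨g, hg, hgx⟩ := hS.exists_siegel hp hpx
  have hgp : g.1 p = p := by
    rw [hgx, hS.sing_iff.1 hp, polar_comm QK _ p, hpx]
    simp
  have h1 := map_rootSpace (hS.sing_val hp) (hS.sing_val hp) hg hgp hw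
  rw [hgx, smul_inv_smul₀ hpw] at h1
  have h2 := (rootSpace M (hS.sing_val hp)).sub_mem h1 hw
  have h3 := (rootSpace M (hS.sing_val hp)).add_mem h2 (hS.kline_mem hR hp hp0
    (polar QK ((polar QK p w)⁻¹ • x) w + QK ((polar QK p w)⁻¹ • x) * polar QK p w))
  convert h3 using 1
  module

lemma perp_mem_three (hr : 3 ≤ finrank F K) {p : V} (hp : QK p = 0) (hp0 : p ≠ 0) {x : V}
    (hx : polar Q p x = 0) : x ∈ rootSpace M (hS.sing_val hp) := by
  classical
  haveI := hS.finiteF
  obtain ⟨f, hf, hpf⟩ := hS.exists_partner hp hp0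
  obtain ⟨l₀, hl₀S, htl₀⟩ := exists_tr_zero_not_mem hr (⊥ : Submodule F K) (by simp)
  have hl₀ : l₀ ≠ 0 := fun e => hl₀S (e ▸ zero_mem _)
  -- values off the line of `l₀`
  have hval : ∀ y ∉ Submodule.span F {l₀}, Algebra.trace F K y = 0 →
      ∃ w ∈ rootSpace M (hS.sing_val hp), polar QK p w = y := by
    intro y hy hty
    have hzp : polar QK (l₀ • f) p = l₀ := by
      rw [polar_smul_left, polar_comm, hpf, smul_eq_mul, mul_one]
    obtain ⟨g, hg, hgx⟩ := hR (l₀ • f) (by rw [QuadraticMap.map_smul, hf, smul_zero])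
      (smul_ne_zero hl₀ fun e => by simp [e] at hpf) 1 (y / l₀)
    have hgp : g.1 p = p := by
      rw [hgx, hzp, Sk_apply, one_mul, div_mul_cancel₀ _ hl₀, htl₀, hty]
      simp
    obtain ⟨l, hly, hll⟩ : ∃ l, Algebra.trace F K (y * l) = 0 ∧
        Algebra.trace F K (l * l₀) = 1 := by
      by_contra hcon
      push Not at hcon
      have h0 : ∀ l, Algebra.trace F K (y * l) = 0 → Algebra.trace F K (l * l₀) = 0 := by
        intro l hl
        by_contra hne
        refine hcon ((Algebra.trace F K (l * l₀))⁻¹ • l) (by rw [mul_smul_comm, map_smul, hl,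
          smul_zero]) (by rw [smul_mul_assoc, map_smul, smul_eq_mul, inv_mul_cancel₀ hne])
      have hy0 : y ≠ 0 := fun e => hy (e ▸ zero_mem _)
      obtain ⟨m, hm⟩ := hS.exists_tr_ne hy0
      obtain ⟨c, hc⟩ : ∃ c, c = Algebra.trace F K (m * l₀) / Algebra.trace F K (m * y) := ⟨_, rfl⟩
      have hl₀c : l₀ = c • y := hS.ext_tr fun k => by
        obtain ⟨d, hd⟩ : ∃ d, d = Algebra.trace F K (k * y) / Algebra.trace F K (m * y) := ⟨_, rfl⟩
        have e := h0 (k - d • m) (by
          rw [mul_sub, map_sub, mul_smul_comm, map_smul, smul_eq_mul, mul_comm y k, mul_comm y m,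
            hd, div_mul_cancel₀ _ hm, sub_self])
        rw [sub_mul, map_sub, smul_mul_assoc, map_smul, sub_eq_zero] at e
        rw [e, mul_smul_comm, map_smul, smul_eq_mul, smul_eq_mul, hd, hc]
        ring
      rcases eq_or_ne c 0 with h | h
      · exact hl₀ (by rw [hl₀c, h, zero_smul])
      · exact hy (Submodule.mem_span_singleton.2 ⟨c⁻¹, by rw [hl₀c, inv_smul_smul₀ h]⟩)
    refine ⟨g.1 (l • p), map_rootSpace _ _ hg hgp (hS.kline_mem hR hp hp0 l), ?_⟩
    rw [hgx, polar_add_right, polar_smul_right, hS.sing_iff.1 hp, smul_zero, zero_add,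
      polar_smul_right, polar_smul_right, polar_smul_right, polar_comm QK p f, polar_comm QK f p,
      hpf, hzp, Sk_apply, one_mul]
    simp only [smul_eq_mul, mul_one]
    rw [hll, show y / l₀ * (l * l₀) = y * l by field_simp, hly]
    simp [div_mul_cancel₀ _ hl₀]
  obtain ⟨y₁, hy₁, hty₁⟩ := exists_tr_zero_not_mem hr (Submodule.span F {l₀})
    (finrank_span_singleton hl₀).le
  obtain ⟨w₁, hw₁, hpw₁⟩ := hval y₁ hy₁ hty₁
  have hne : polar QK p w₁ ≠ 0 := by rw [hpw₁]; exact fun e => hy₁ (e ▸ zero_mem _)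
  obtain ⟨w, hw, hpw⟩ : ∃ w ∈ rootSpace M (hS.sing_val hp), polar QK p w = polar QK p x := by
    have hty : Algebra.trace F K (polar QK p x) = 0 := by rw [← hS.polar_trace, hx]
    by_cases hy : polar QK p x ∈ Submodule.span F {l₀}
    · obtain ⟨w, hw, hpw⟩ := hval (polar QK p x + y₁)
        (fun h => hy₁ (by simpa using sub_mem h hy)) (by rw [map_add, hty, hty₁, add_zero])
      exact ⟨w - w₁, sub_mem hw hw₁, by rw [polar_sub_right, hpw, hpw₁, add_sub_cancel_right]⟩
    · exact hval _ hy hty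
  have := (rootSpace M (hS.sing_val hp)).add_mem hw
    (hS.perp_mem hR hp hp0 hw₁ hne (x := x - w) (by rw [polar_sub_right, hpw, sub_self]))
  rwa [add_sub_cancel] at this

lemma perp_mem_two (hr : finrank F K = 2) {p : V} (hp : QK p = 0) (hp0 : p ≠ 0) {x : V}
    (hx : polar Q p x = 0) : x ∈ rootSpace M (hS.sing_val hp) := by
  classical
  haveI := hS.finiteF
  obtain ⟨ω, hωF, hω⟩ : ∃ ω : K, ω ∉ Set.range (algebraMap F K) ∧ Algebra.trace F K ω = 0 := by
    obtain ⟨k, hk⟩ := exists_not_range (F := F) (K := K) hr.ge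
    refine ⟨k - algebraMap F K (Algebra.trace F K k / 2), fun ⟨a, ha⟩ => hk
      ⟨a + Algebra.trace F K k / 2, by rw [map_add, ha]; ring⟩, ?_⟩
    rw [map_sub, Algebra.trace_algebraMap, hr, two_nsmul, ← two_mul, mul_div_cancel₀ _ hS.two,
      sub_self]
  have hω0 : ω ≠ 0 := fun e => hωF ⟨0, by rw [map_zero, e]⟩
  have hind : LinearIndependent F ![(1 : K), ω] :=
    (LinearIndependent.pair_iff' one_ne_zero).2 fun a e => hωF ⟨a, by
      rw [← e, Algebra.smul_def, mul_one]⟩
  let b := basisOfLinearIndependentOfCardEqFinrank hind (by rw [Fintype.card_fin, hr])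
  have hdec : ∀ k : K, ∃ a c : F, k = algebraMap F K a + algebraMap F K c * ω := by
    intro k
    refine ⟨b.repr k 0, b.repr k 1, ?_⟩
    conv_lhs => rw [← b.sum_repr k]
    simp [b, Fin.sum_univ_two, Algebra.smul_def]
  obtain ⟨ν, hν⟩ : ∃ ν : F, ω * ω = algebraMap F K ν := by
    refine ⟨b.repr (ω * ω) 0, ?_⟩
    have h1 : b.repr (ω * ω) 1 = 0 := by
      have e := Algebra.trace_eq_matrix_trace b ω
      have b0 : b 0 = 1 := by simp [b]
      have b1 : b 1 = ω := by simp [b]
      rw [hω, Matrix.trace_fin_two, Algebra.leftMulMatrix_eq_repr_mul,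
        Algebra.leftMulMatrix_eq_repr_mul, b0, b1, mul_one] at e
      have h00 : b.repr ω 0 = 0 := by
        conv_lhs => rw [← b1]
        simp
      rw [h00, zero_add] at e
      exact e.symm
    conv_lhs => rw [← b.sum_repr (ω * ω)]
    simp [b, Fin.sum_univ_two, Algebra.smul_def] at h1 ⊢
    simp [h1]
  have htr : ∀ a c : F, Algebra.trace F K (algebraMap F K a + algebraMap F K c * ω) = 2 * a := by
    intro a c
    rw [map_add, Algebra.trace_algebraMap, ← Algebra.smul_def, map_smul, hω, hr, smul_zero,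
      add_zero, two_nsmul, two_mul]
  have hA : ∀ a c : F, Sk (F := F) 1 ω (algebraMap F K a + algebraMap F K c * ω) =
      algebraMap F K (2 * a) * ω - algebraMap F K (2 * c * ν) := by
    intro a c
    rw [Sk_apply, one_mul, htr,
      show ω * (algebraMap F K a + algebraMap F K c * ω) =
        algebraMap F K (c * ν) + algebraMap F K a * ω by rw [map_mul, ← hν]; ring, htr,
      Algebra.smul_def, Algebra.smul_def, mul_one, ← mul_assoc]
  obtain ⟨f, hf, hpf⟩ := hS.exists_partner hp hp0
  obtain ⟨e, hpe, hfe, he⟩ := hS.exists_value hp hf (by rw [hpf]; exact one_ne_zero) (-1)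
  obtain ⟨z₂, hz₂⟩ : ∃ z₂, z₂ = p + f + e := ⟨_, rfl⟩
  have hpp : polar QK p p = 0 := hS.sing_iff.1 hp
  have hff : polar QK f f = 0 := hS.sing_iff.1 hf
  have hz₂q : QK z₂ = 0 := by
    rw [hz₂, qf_add, qf_add, hp, hf, he, polar_add_left, hpf, hpe, hfe]; ring
  have hz₂f : polar QK z₂ f = 1 := by
    rw [hz₂, polar_add_left, polar_add_left, hpf, hff, polar_comm QK e f, hfe]; simp
  have hz₂p : polar QK z₂ p = 1 := by
    rw [hz₂, polar_add_left, polar_add_left, hpp, polar_comm QK f p, hpf, polar_comm QK e p, hpe]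
    simp
  have hz₂0 : z₂ ≠ 0 := fun e => by simp [e] at hz₂f
  have h4 : (1 : F) - 4 * ν ≠ 0 := by
    intro h
    have h' : (2 * ω - 1) * (2 * ω + 1) = 0 := by
      have : algebraMap F K (1 - 4 * ν) = 0 := by rw [h, map_zero]
      rw [map_sub, map_one, map_mul, map_ofNat, ← hν] at this
      linear_combination -this
    rcases mul_eq_zero.1 h' with e | e
    · refine hωF ⟨1 / 2, ?_⟩
      rw [map_div₀, map_one, map_ofNat, div_eq_iff hS.twoK]; linear_combination -e
    · refine hωF ⟨-1 / 2, ?_⟩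
      rw [map_div₀, map_neg, map_one, map_ofNat, div_eq_iff hS.twoK]; linear_combination -e
  obtain ⟨s, hs⟩ : ∃ s : F, s = -(1 - 4 * ν)⁻¹ := ⟨_, rfl⟩
  have hs0 : s ≠ 0 := by rw [hs]; exact neg_ne_zero.2 (inv_ne_zero h4)
  have hs' : algebraMap F K s * (1 - 4 * ω * ω) = -1 := by
    rw [mul_assoc, hν, hs, show (1 : K) - 4 * algebraMap F K ν = algebraMap F K (1 - 4 * ν) by
      rw [map_sub, map_one, map_mul, map_ofNat], ← map_mul, neg_mul, inv_mul_cancel₀ h4, map_neg,
      map_one]
  obtain ⟨g₁, hg₁, hg₁x⟩ := hR p hp hp0 1 ω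
  obtain ⟨g₂, hg₂, hg₂x⟩ := (hS.osub hz₂q hz₂0).smul_mem s (hR z₂ hz₂q hz₂0 1 ω)
  have hA1 : Sk (F := F) 1 ω 1 = 2 * ω := by
    have := hA 1 0
    simp only [map_one, map_zero, zero_mul, add_zero, mul_one, mul_zero, sub_zero, map_ofNat] at this
    exact this
  have hAω : Sk (F := F) 1 ω ω = -2 * (ω * ω) := by
    have := hA 0 1
    simp only [map_one, map_zero, zero_add, one_mul, mul_one, mul_zero, zero_mul, zero_sub,
      map_mul, map_ofNat] at this
    rw [this, hν]; ring
  have hAm₁ : Sk (F := F) 1 ω (1 + 2 * ω) = 2 * ω - 4 * (ω * ω) := by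
    have := hA 1 2
    simp only [map_one, map_mul, map_ofNat, mul_one] at this
    rw [this, hν]; ring
  have hAmx : Sk (F := F) 1 ω (ω - 2 * (ω * ω)) = -4 * (ω * ω) * ω - 2 * (ω * ω) := by
    have := hA (-2 * ν) 1
    simp only [map_one, map_mul, map_ofNat, map_neg, one_mul, mul_one] at this
    rw [hν, show ω - 2 * algebraMap F K ν = -2 * algebraMap F K ν + ω by ring, this]
    ring
  have hw : ∀ l : K, (g₂ * g₁).1 (l • f) = l • f + Sk (F := F) 1 ω l • p +
      (algebraMap F K s * Sk (F := F) 1 ω (l + Sk (F := F) 1 ω l)) • z₂ := by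
    intro l
    rw [Subgroup.coe_mul, LinearEquiv.mul_apply, hg₁x, polar_smul_right, hpf, smul_eq_mul, mul_one,
      hg₂x, polar_add_right, polar_smul_right, polar_smul_right, hz₂f, hz₂p, smul_eq_mul,
      smul_eq_mul, mul_one, mul_one, LinearMap.smul_apply, Algebra.smul_def]
  obtain ⟨p₀, hp₀⟩ : ∃ p₀, p₀ = (g₂ * g₁).1 f := ⟨_, rfl⟩
  have hp₀' : p₀ = f + (2 * ω) • p + (algebraMap F K s * (2 * ω - 4 * (ω * ω))) • z₂ := by
    rw [hp₀]
    have e := hw 1
    rw [one_smul, hA1, hAm₁] at e
    exact e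
  have hp₀q : QK p₀ = 0 := by
    rw [hp₀', qf_add, qf_add, QuadraticMap.map_smul, QuadraticMap.map_smul, polar_add_left,
      polar_smul_left, polar_smul_right, polar_smul_right, polar_smul_right, hf, hp, hz₂q,
      polar_comm QK f z₂, hz₂f, polar_comm QK f p, hpf, polar_comm QK p z₂, hz₂p]
    simp only [smul_eq_mul]
    linear_combination (2 * ω) * hs'
  obtain ⟨w₀, hw₀⟩ : ∃ w₀, w₀ = (g₂ * g₁).1 (ω • f) := ⟨_, rfl⟩
  have hm : polar QK p₀ w₀ ≠ 0 := by
    have e := hw ω
    rw [hAω, show ω + -2 * (ω * ω) = ω - 2 * (ω * ω) by ring, hAmx] at e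
    have hval : polar QK p₀ w₀ = -16 * algebraMap F K s * (ω * ω) * ω := by
      rw [hp₀', hw₀, e]
      simp only [polar_add_left, polar_add_right, polar_smul_left, polar_smul_right, smul_eq_mul,
        hpf, hz₂f, hz₂p, hpp, hff, hS.sing_iff.1 hz₂q, polar_comm QK f p, polar_comm QK f z₂,
        polar_comm QK p z₂]
      ring
    rw [hval]
    refine mul_ne_zero (mul_ne_zero (mul_ne_zero (neg_ne_zero.2 ?_) ?_) (mul_ne_zero hω0 hω0)) hω0
    · rw [show (16 : K) = 2 * 2 * 2 * 2 by norm_num]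
      exact mul_ne_zero (mul_ne_zero (mul_ne_zero hS.twoK hS.twoK) hS.twoK) hS.twoK
    · exact (map_ne_zero (algebraMap F K)).2 hs0
  have hf0 : f ≠ 0 := fun e => by simp [e] at hpf
  have hp₀0 : p₀ ≠ 0 := fun e => hm (by simp [e])
  have hw₀W : w₀ ∈ rootSpace M (hS.sing_val hp₀q) := hw₀ ▸
    map_rootSpace _ _ (mul_mem hg₂ hg₁) hp₀.symm (hS.kline_mem hR hf hf0 ω)
  obtain ⟨g, hg, hlin, hgp⟩ := hS.exists_trans hp₀q hp₀0 hp hp0
  have hgw := map_rootSpace (hS.sing_val hp₀q) (hS.sing_val hp) hg hgp hw₀W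
  have hm' : polar QK p (g.1 w₀) ≠ 0 := by rwa [← hgp, hS.polar_map_of_lin hlin]
  -- trace zero values are multiples of `ω`
  have hline : ∀ y : K, Algebra.trace F K y = 0 → ∃ c : F, y = algebraMap F K c * ω := by
    intro y hy
    obtain ⟨a, c, rfl⟩ := hdec y
    rw [htr, mul_eq_zero, or_iff_right hS.two] at hy
    exact ⟨c, by rw [hy, map_zero, zero_add]⟩
  obtain ⟨c, hc⟩ := hline (polar QK p x) (by rw [← hS.polar_trace, hx])
  obtain ⟨c', hc'⟩ := hline (polar QK p (g.1 w₀)) (by rw [← hS.polar_trace, hgw.1])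
  have hc'0 : algebraMap F K c' ≠ 0 := fun e => hm' (by rw [hc', e, zero_mul])
  have h1 := hS.perp_mem hR hp hp0 hgw hm' (x := x - (c / c') • g.1 w₀) (by
    rw [← algebraMap_smul K (c / c'), polar_sub_right, polar_smul_right, smul_eq_mul, hc, hc',
      map_div₀]
    field_simp
    ring)
  simpa using add_mem h1 ((rootSpace M (hS.sing_val hp)).smul_mem (c / c') hgw)

lemma mem_centres {p : V} (hp : QK p = 0) (hp0 : p ≠ 0) : p ∈ GeoClasses.siegelCentres Q M := by
  refine ⟨hS.sing_val hp, fun a ha => ?_⟩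
  have hW : a ∈ rootSpace M (hS.sing_val hp) := by
    rcases (hS.prime.two_le).eq_or_lt with hr | hr
    · exact hS.perp_mem_two hR hr.symm hp hp0 ha
    · exact hS.perp_mem_three hR hr hp hp0 ha
  have := hW.2 1 (by rwa [one_smul])
  rwa [siegel_congr Q _ _ (hS.sing_val hp) ha rfl (one_smul F a)] at this

omit hR in
/-- An element outside the normaliser gives the commutator subgroup. -/
theorem commutator_le {g : OQ Q} (hg : g ∈ M)
    (hout : ¬ ∀ k : K, ∃ k' : K, ∀ x, g.1 (k • x) = k' • g.1 x) :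
    commutator (OQ Q) ≤ M := by
  haveI := hS.finiteF
  haveI := hS.finiteDim
  have hR := hS.allSk_of_outside hg hout
  obtain ⟨z, hz0, hz, -⟩ := hS.exists_good g
  obtain ⟨f, hf, hzf⟩ := hS.exists_partner hz hz0
  obtain ⟨c, hc⟩ := hS.exists_tr_ne (one_ne_zero : (1 : K) ≠ 0)
  have hf0 : f ≠ 0 := fun e => by simp [e] at hzf
  have hc0 : c ≠ 0 := fun e => by simp [e] at hc
  refine GeoClasses.commutator_le_of_centre_pair hS.bnondeg ?_ (hS.mem_centres hR hz hz0)
    (hS.mem_centres hR (p := c • f) (by rw [QuadraticMap.map_smul, hf, smul_zero])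
      (smul_ne_zero hc0 hf0)) ?_
  · rw [hS.finrankF]
    have := Nat.mul_le_mul hS.prime.two_le hS.dim
    omega
  · rw [hS.polar_smul, polar_comm, hzf]
    exact hc

omit hR in
/-- The commutator subgroup is not semilinear. -/
theorem exists_outside : ∃ g ∈ commutator (OQ Q),
    ¬ ∀ k : K, ∃ k' : K, ∀ x, g.1 (k • x) = k' • g.1 x := by
  haveI := hS.finiteF
  haveI := hS.finiteDim
  obtain ⟨z, hz0, hz, -⟩ := hS.exists_good (1 : OQ Q)
  obtain ⟨f, hf, hzf⟩ := hS.exists_partner hz hz0
  obtain ⟨k, hk⟩ := exists_not_range (F := F) (K := K) hS.prime.two_le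
  have hzz : polar QK z z = 0 := hS.sing_iff.1 hz
  have hkq : Q (k • z) = 0 := hS.sing_val (by rw [QuadraticMap.map_smul, hz, smul_zero])
  have hzk : polar Q z (k • z) = 0 := by
    rw [hS.polar_trace, polar_smul_right, hzz, smul_zero, map_zero]
  have hn5 : 5 ≤ finrank F V := by
    rw [hS.finrankF]
    have := Nat.mul_le_mul hS.prime.two_le hS.dim
    omega
  refine ⟨siegel Q (hS.sing_val hz) hzk,
    GeoClasses.siegel_singular_mem_commutator hS.bnondeg hn5 _ _ hkq, fun h => ?_⟩
  have hgx : ∀ x, (siegel Q (hS.sing_val hz) hzk).1 x = x + Sk (F := F) 1 k (polar QK z x) • z := by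
    intro x
    rw [siegel_apply, hkq, hS.polar_smul, hS.polar_trace, Sk_apply, one_mul, sub_smul, smul_assoc,
      smul_assoc, one_smul, zero_mul, zero_smul, sub_zero, add_sub_assoc]
  generalize hA : Sk (F := F) (1 : K) k = A at hgx
  have hlin : ∀ l, A l = l * A 1 := by
    intro l
    obtain ⟨l', hl'⟩ := h l
    have e1 := hl' z
    rw [hgx, hgx, polar_smul_right, hzz, smul_zero, map_zero, zero_smul, add_zero, add_zero] at e1
    have e2 := hl' f
    rw [← smul_left_injective K hz0 e1, hgx, hgx, polar_smul_right, hzf, smul_eq_mul, mul_one,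
      smul_add, smul_smul, add_right_inj] at e2
    exact smul_left_injective K hz0 e2
  have hskew : ∀ l, Algebra.trace F K (1 * A l) = - Algebra.trace F K (l * A 1) := by
    intro l
    rw [← hA]
    simp only [Sk_apply, mul_sub, mul_smul_comm, map_sub, map_smul, smul_eq_mul, one_mul, mul_one]
    rw [mul_comm k l]
    ring
  have hA1 : A 1 = 0 := hS.ext_tr fun l => by
    have e := hskew l
    rw [hlin l, one_mul] at e
    rw [mul_zero, map_zero]
    exact (mul_eq_zero.1 (show (2 : F) * Algebra.trace F K (l * A 1) = 0 by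
      linear_combination e)).resolve_left hS.two
  obtain ⟨c, hc⟩ := hS.exists_tr_ne (one_ne_zero : (1 : K) ≠ 0)
  rw [mul_one] at hc
  have e0 := hlin c
  rw [hA1, mul_zero, ← hA, Sk_apply, one_mul, sub_eq_zero] at e0
  refine hk ⟨Algebra.trace F K (k * c) / Algebra.trace F K c, ?_⟩
  have hc' : algebraMap F K (Algebra.trace F K c) ≠ 0 := (map_ne_zero (algebraMap F K)).2 hc
  rw [Algebra.smul_def, Algebra.smul_def, mul_one] at e0
  rw [map_div₀, div_eq_iff hc', ← e0, mul_comm]

end Setup

end Cfsg.Agent.MaxSub.OrthExt
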