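import Cfsg.Agent.MaxSub.OrthExt.Final
import Cfsg.Agent.MaxSub.FieldSub

/-!
The normaliser of a self-adjoint extension field of prime degree is maximal in `Ω`.
-/

set_option autoImplicit false

namespace Cfsg.Agent.MaxSub.OrthExt

open Matrix Module Cfsg.Agent.Classical Cfsg.Geo
open scoped MatrixGroups Matrix

theorem omega_extField_maximal_aux {F : Type*} [Field F] [Fintype F] {n r : ℕ} (h2 : (2 : F) ≠ 0)
    (hd : ∀ d, r * d = n → 4 ≤ d) (hr : r.Prime) (hn : 0 < n) {Q : (Fin n → F) → F}
    (hQ : IsNondegenerateQuadraticForm Q) {K : Type*} [Field K] [Finite K] [Algebra F K]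
    (hfr : Module.finrank F K = r) (ψ : K →ₐ[F] Matrix (Fin n) (Fin n) F)
    (K₀ : Subalgebra F (Matrix (Fin n) (Fin n) F)) (hψ : ∀ x, x ∈ K₀ ↔ ∃ c, ψ c = x)
    (hsa : IsSelfAdjointFor (QuadraticMap.polar Q) K₀) :
    IsMaximalIn (omegaGL Q) (subalgebraNormalizer K₀ ⊓ omegaGL Q) := by
  classical
  letI : Module K (Fin n → F) := Module.compHom (Fin n → F)
    ((Matrix.toLinAlgEquiv' : Matrix (Fin n) (Fin n) F ≃ₐ[F] _).toAlgHom.comp ψ).toRingHom
  have hsmul : ∀ (c : K) (v : Fin n → F), c • v = ψ c *ᵥ v := fun c v => rfl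
  haveI : IsScalarTower F K (Fin n → F) := ⟨fun a c v => by
    rw [hsmul, hsmul, map_smul, Matrix.smul_mulVec]⟩
  haveI : FiniteDimensional F K := Module.finite_of_finrank_pos (hfr ▸ hr.pos)
  haveI : FiniteDimensional K (Fin n → F) := Module.Finite.of_restrictScalars_finite F K _
  set Qf := GeoClasses.toQF hQ with hQf
  have hB : BNondeg Qf := GeoClasses.bNondeg_toQF hQ
  have hdim : 4 ≤ finrank K (Fin n → F) := by
    have h := Module.finrank_mul_finrank F K (Fin n → F)
    rw [hfr, Module.finrank_fin_fun] at h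
    exact hd _ h
  have h2K : (2 : K) ≠ 0 := fun h => h2 (by
    apply (algebraMap F K).injective
    rw [map_ofNat, map_zero]; exact h)
  -- the form over `K`
  have htr : (Algebra.traceForm F K).Nondegenerate := traceForm_nondegenerate F K
  have hext : ∀ x y : K, (∀ k, Algebra.trace F K (k * x) = Algebra.trace F K (k * y)) → x = y := by
    intro x y hxy
    refine sub_eq_zero.1 (htr.1 _ fun k => ?_)
    rw [Algebra.traceForm_apply, mul_comm, mul_sub, map_sub, hxy, sub_self]
  have hsa' : ∀ (k : K) u v, QuadraticMap.polar Qf (k • u) v = QuadraticMap.polar Qf u (k • v) :=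
    fun k u v => by
      rw [hsmul, hsmul, hQf, GeoClasses.coe_toQF]
      exact hsa _ ((hψ _).2 ⟨k, rfl⟩) u v
  have hfun : ∀ u v, ∃ c : K, ∀ k : K,
      Algebra.trace F K (k * c) = QuadraticMap.polar Qf (k • u) v := by
    intro u v
    let φ : K →ₗ[F] F :=
      ((QuadraticMap.polarBilin Qf).flip v) ∘ₗ ((LinearMap.toSpanSingleton K _ u).restrictScalars F)
    refine ⟨((Algebra.traceForm F K).toDual htr).symm φ, fun k => ?_⟩
    have := LinearMap.BilinForm.apply_toDual_symm_apply (hB := htr) φ k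
    rw [Algebra.traceForm_apply, mul_comm] at this
    exact this
  choose c hc using hfun
  let h : LinearMap.BilinForm K (Fin n → F) := LinearMap.mk₂ K c
    (fun u u' v => hext _ _ fun k => by
      rw [hc, mul_add, map_add, hc, hc, smul_add, QuadraticMap.polar_add_left])
    (fun a u v => hext _ _ fun k => by rw [hc, smul_eq_mul, ← mul_assoc, hc, smul_smul])
    (fun u v v' => hext _ _ fun k => by
      rw [hc, mul_add, map_add (Algebra.trace F K), hc, hc, QuadraticMap.polar_add_right])
    (fun a u v => hext _ _ fun k => by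
      rw [hc, smul_eq_mul, ← mul_assoc, hc, hsa', hsa', smul_smul])
  have hh : ∀ u v, h u v = c u v := fun u v => rfl
  have hsymm : ∀ u v, h u v = h v u := fun u v => hext _ _ fun k => by
    rw [hh, hh, hc, hc, hsa', QuadraticMap.polar_comm]
  let QK : QuadraticForm K (Fin n → F) := (2 : K)⁻¹ • LinearMap.BilinMap.toQuadraticMap h
  have hQK : ∀ v, QK v = (2 : K)⁻¹ * h v v := fun v => by
    simp [QK, LinearMap.BilinMap.toQuadraticMap_apply]
  have hpolar : ∀ u v, QuadraticMap.polar QK u v = h u v := by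
    intro u v
    simp only [QuadraticMap.polar, hQK, map_add, LinearMap.add_apply, hsymm v u]
    field_simp
    ring
  have hval : ∀ v, Qf v = Algebra.trace F K (QK v) := by
    intro v
    refine mul_left_cancel₀ h2 ?_
    rw [← smul_eq_mul (2 : F) (Algebra.trace F K (QK v)), ← map_smul, Algebra.smul_def, map_ofNat,
      hQK, mul_inv_cancel_left₀ h2K, ← one_mul (h v v), hh, hc, one_smul, QuadraticMap.polar_self,
      two_smul, two_mul]
  set N := (subalgebraNormalizer K₀).comap (GeoClasses.oqToGL Qf) with hN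
  -- membership in the normaliser
  have hnorm : ∀ g : OQ Qf, g ∈ N ↔ ∀ k : K, ∃ k' : K, ∀ x, g.1 (k • x) = k' • g.1 x := by
    intro g
    rw [hN, Subgroup.mem_comap, MaxSub.mem_normalizer_iff_map_le]
    constructor
    · intro hg k
      obtain ⟨k', hk'⟩ := (hψ _).1 (hg (ψ k) ((hψ _).2 ⟨k, rfl⟩))
      refine ⟨k', fun x => ?_⟩
      have h' := congrArg
        (fun A => (A * (GeoClasses.oqToGL Qf g : Matrix (Fin n) (Fin n) F)) *ᵥ x) hk'
      simp only [mul_assoc, Units.inv_mul, mul_one, ← Matrix.mulVec_mulVec,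
        GeoClasses.oqToGL_mulVec] at h'
      rw [hsmul, hsmul]
      exact h'.symm
    · intro hg x hx
      obtain ⟨k, rfl⟩ := (hψ _).1 hx
      obtain ⟨k', hk'⟩ := hg k
      have e : (GeoClasses.oqToGL Qf g : Matrix (Fin n) (Fin n) F) * ψ k =
          ψ k' * (GeoClasses.oqToGL Qf g : Matrix (Fin n) (Fin n) F) := by
        refine Matrix.ext_iff_mulVec.2 fun x => ?_
        simp only [← Matrix.mulVec_mulVec, GeoClasses.oqToGL_mulVec, ← hsmul]
        exact hk' x
      rw [e, mul_assoc, Units.mul_inv, mul_one]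
      exact (hψ _).2 ⟨k', rfl⟩
  -- the linear group inside
  let Φ : OQ QK →* OQ Qf :=
    { toFun := fun s => ⟨s.1.restrictScalars F, mem_OQ.2 fun v => by
        rw [hval, hval]
        exact congrArg _ (OQ_map_app s v)⟩
      map_one' := rfl
      map_mul' := fun s t => rfl }
  have hΦ : ∀ s ∈ commutator (OQ QK), Φ s ∈ N ⊓ commutator (OQ Qf) := by
    intro s hs
    refine ⟨(hnorm _).2 fun k => ⟨k, fun x => s.1.map_smul k x⟩, ?_⟩
    have hle : (commutator (OQ QK)).map Φ ≤ commutator (OQ Qf) := by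
      rw [commutator_def, commutator_def, Subgroup.map_commutator]
      exact Subgroup.commutator_mono le_top le_top
    exact hle ⟨s, hs, rfl⟩
  have hSetup : ∀ M : Subgroup (OQ Qf), N ⊓ commutator (OQ Qf) ≤ M → Setup QK M := fun M hM =>
    ⟨h2, hval, fun x hx => hB x fun y => by
      rw [← one_smul K x, ← hc, one_mul, ← hh, ← hpolar, hx, map_zero],
      hdim, hfr ▸ hr, fun s hs => ⟨Φ s, hM (hΦ s hs), fun x => rfl⟩⟩
  have hmax : IsMaximalIn (commutator (OQ Qf)) (N ⊓ commutator (OQ Qf)) := by
    refine ⟨lt_of_le_not_ge inf_le_right fun hle => ?_, fun M hM hMC => ?_⟩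
    · obtain ⟨g, hg, hout⟩ := (hSetup _ le_rfl).exists_outside
      exact hout ((hnorm g).1 (hle hg).1)
    · by_cases hMN : M ≤ N
      · exact Or.inl (le_antisymm (le_inf hMN hMC) hM)
      obtain ⟨g, hgM, hgN⟩ := SetLike.not_le_iff_exists.1 hMN
      exact Or.inr (le_antisymm hMC
        ((hSetup M hM).commutator_le hgM fun h' => hgN ((hnorm g).2 h')))
  have := GeoClasses.isMaximalIn_map (GeoClasses.oqToGL_injective Qf) hmax
  rw [Subgroup.map_inf _ _ _ (GeoClasses.oqToGL_injective Qf), GeoClasses.map_oqToGL_commutator,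
    hN, Subgroup.map_comap_eq] at this
  have hle : omegaGL Q ≤ (GeoClasses.oqToGL Qf).range := by
    have := GeoClasses.map_oqToGL_commutator Qf
    rw [hQf, GeoClasses.coe_toQF] at this
    exact this.symm.le.trans (Subgroup.map_le_range _ _)
  simp only [hQf, GeoClasses.coe_toQF] at this
  rwa [inf_comm (GeoClasses.oqToGL _).range, inf_assoc,
    inf_of_le_right (a := (GeoClasses.oqToGL _).range) (b := omegaGL Q) hle] at this

/-- The maximality theorem whenever the dimension over the field is at least four. -/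
theorem omega_extField_maximal_of_dim {F : Type*} [Field F] [Fintype F] {n r : ℕ} (hn : 0 < n)
    (hodd : Odd (Fintype.card F)) (hd : ∀ d, r * d = n → 4 ≤ d) (hr : r.Prime) {Q : (Fin n → F) → F}
    (hQ : IsNondegenerateQuadraticForm Q) (K : Subalgebra F (Matrix (Fin n) (Fin n) F))
    (hK : IsFieldSubalgebra r K) (hsa : IsSelfAdjointFor (QuadraticMap.polar Q) K) :
    IsMaximalIn (omegaGL Q) (subalgebraNormalizer K ⊓ omegaGL Q) := by
  haveI : Nonempty (Fin n) := ⟨⟨0, hn⟩⟩
  letI : Field K := (isField_of_isFieldSubalgebra hK).toField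
  haveI : Finite K := Finite.of_injective
    (fun x : K => (x : Matrix (Fin n) (Fin n) F)) Subtype.val_injective
  exact omega_extField_maximal_aux (Ring.two_ne_zero fun h => by
      have := FiniteField.even_card_of_char_two h
      rw [Nat.odd_iff] at hodd
      omega)
    hd hr hn hQ (K := K) hK.finrank_eq K.val K
    (fun x => ⟨fun hx => ⟨⟨x, hx⟩, rfl⟩, fun ⟨c, hc⟩ => hc ▸ c.2⟩) hsa

/-- The form used for even degree at least thirteen. -/
theorem omega_extField_maximal {F : Type*} [Field F] [Fintype F] {n r : ℕ}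
    (hn : 13 ≤ n) (heven : Even n) (hodd : Odd (Fintype.card F)) (hd : 3 * r ≤ n) (hr : r.Prime)
    {Q : (Fin n → F) → F}
    (hQ : IsNondegenerateQuadraticForm Q) (K : Subalgebra F (Matrix (Fin n) (Fin n) F))
    (hK : IsFieldSubalgebra r K) (hsa : IsSelfAdjointFor (QuadraticMap.polar Q) K) :
    IsMaximalIn (omegaGL Q) (subalgebraNormalizer K ⊓ omegaGL Q) := by
  refine omega_extField_maximal_of_dim (by omega) hodd (fun d hd' => ?_) hr hQ K hK hsa
  by_contra h4
  have h3 := Nat.mul_le_mul_left r (show d ≤ 3 by omega)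
  have hn3 : n = 3 * r := by omega
  rcases hr.eq_two_or_odd' with h' | h'
  · omega
  · rw [hn3, Nat.even_mul] at heven
    rcases heven with h'' | h''
    · exact absurd h'' (by decide)
    · exact Nat.not_even_iff_odd.2 h' h''

end Cfsg.Agent.MaxSub.OrthExt
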