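import Cfsg.Agent.MaxSub.OrthExt.Key

/-!
Two members meeting non-trivially give an element stabilising a line over the extension without
being semilinear on it, and hence all root elements.
-/

set_option autoImplicit false
set_option linter.unusedSectionVars false

namespace Cfsg.Agent.MaxSub.OrthExt

open QuadraticMap Module Cfsg.Agent.Classical Cfsg.Agent.OrthGen
open Cfsg.Agent.MaxSub.ExtField (kline mem_kline self_mem_kline smul_mem_kline finrank_kline)

universe u v w

/-- Common zeros of few inhomogeneous quadratic forms. -/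
lemma exists_common_zero {F W ι : Type*} [Field F] [Finite F] [AddCommGroup W] [Module F W]
    [FiniteDimensional F W] [Fintype ι] (L : ι → W →ₗ[F] F) (β : ι → LinearMap.BilinForm F W)
    (h : 2 * Fintype.card ι < finrank F W) : ∃ x ≠ 0, ∀ i, L i x + β i x x = 0 := by
  classical
  have := Fintype.ofFinite F
  set b := Module.finBasis F W with hb
  let f : ι → MvPolynomial (Fin (finrank F W)) F := fun i =>
    ∑ j, MvPolynomial.C (L i (b j)) * MvPolynomial.X j +
      ∑ j, ∑ l, MvPolynomial.C (β i (b j) (b l)) * (MvPolynomial.X j * MvPolynomial.X l)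
  have hdeg : ∀ i, (f i).totalDegree ≤ 2 := by
    intro i
    refine (MvPolynomial.totalDegree_add _ _).trans (max_le ?_ ?_) <;>
      refine MvPolynomial.totalDegree_finsetSum_le fun j _ => ?_
    · refine (MvPolynomial.totalDegree_mul _ _).trans ?_
      rw [MvPolynomial.totalDegree_C, MvPolynomial.totalDegree_X]
      norm_num
    · refine MvPolynomial.totalDegree_finsetSum_le fun l _ => ?_
      refine (MvPolynomial.totalDegree_mul _ _).trans ?_
      rw [MvPolynomial.totalDegree_C, zero_add]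
      refine (MvPolynomial.totalDegree_mul _ _).trans ?_
      rw [MvPolynomial.totalDegree_X, MvPolynomial.totalDegree_X]
  have heval : ∀ i (v : Fin (finrank F W) → F), MvPolynomial.eval v (f i) =
      L i (∑ j, v j • b j) + β i (∑ j, v j • b j) (∑ j, v j • b j) := by
    intro i v
    simp only [f, map_add, map_sum, map_mul, MvPolynomial.eval_C, MvPolynomial.eval_X, map_smul,
      LinearMap.sum_apply, LinearMap.smul_apply, smul_eq_mul, Finset.mul_sum]
    congr 1
    · exact Finset.sum_congr rfl fun j _ => by ring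
    · rw [Finset.sum_comm]
      exact Finset.sum_congr rfl fun j _ => Finset.sum_congr rfl fun l _ => by ring
  obtain ⟨p, hp⟩ : ∃ p, CharP F p := ⟨ringChar F, inferInstance⟩
  have hpr : p.Prime := (CharP.char_is_prime_or_zero F p).resolve_right (CharP.char_ne_zero_of_finite F p)
  have hdvd := char_dvd_card_solutions_of_fintype_sum_lt p (f := f) (by
    refine lt_of_le_of_lt (Finset.sum_le_card_nsmul _ _ 2 fun i _ => hdeg i) ?_
    rw [Finset.card_univ, Fintype.card_fin, smul_eq_mul, mul_comm]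
    exact h)
  let zero : {x : Fin (finrank F W) → F // ∀ i, MvPolynomial.eval x (f i) = 0} :=
    ⟨0, fun i => by rw [heval]; simp⟩
  have hpos : 0 < Fintype.card {x : Fin (finrank F W) → F // ∀ i, MvPolynomial.eval x (f i) = 0} :=
    Fintype.card_pos_iff.2 ⟨zero⟩
  haveI : Nontrivial {x : Fin (finrank F W) → F // ∀ i, MvPolynomial.eval x (f i) = 0} :=
    Fintype.one_lt_card_iff_nontrivial.1 (hpr.two_le.trans (Nat.le_of_dvd hpos hdvd))
  obtain ⟨⟨v, hv⟩, hne⟩ := exists_ne zero
  refine ⟨∑ j, v j • b j, fun h0 => hne (Subtype.ext (funext fun j => ?_)), fun i => ?_⟩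
  · exact Fintype.linearIndependent_iff.1 b.linearIndependent v h0 j
  · rw [← heval]; exact hv i

variable {F : Type u} {K : Type v} {V : Type w} [Field F] [Field K] [Algebra F K] [AddCommGroup V]
  [Module F V] [Module K V] [IsScalarTower F K V] [Finite K] [FiniteDimensional F K]
  [FiniteDimensional K V] {Q : QuadraticForm F V}

/-- The image of a line. -/
noncomputable def img (K : Type v) [Field K] [Algebra F K] [Module K V] [IsScalarTower F K V]
    (g : OQ Q) (z : V) : Submodule F V := (kline F K z).map g.1.toLinearMap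

lemma mem_img {g : OQ Q} {z x : V} : x ∈ img K g z ↔ ∃ k : K, g.1 (k • z) = x := by
  constructor
  · rintro ⟨y, hy, rfl⟩
    obtain ⟨k, rfl⟩ := mem_kline.1 hy
    exact ⟨k, rfl⟩
  · rintro ⟨k, rfl⟩
    exact Submodule.mem_map_of_mem (mem_kline.2 ⟨k, rfl⟩)

lemma finrank_img {g : OQ Q} {z : V} (hz : z ≠ 0) : finrank F (img K g z) = finrank F K := by
  rw [img, LinearEquiv.finrank_map_eq, finrank_kline hz]

lemma kline_eq {y d : V} (hd : d ∈ kline F K y) (hd0 : d ≠ 0) : kline F K d = kline F K y := by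
  obtain ⟨c, rfl⟩ := mem_kline.1 hd
  have hc : c ≠ 0 := fun e => hd0 (by rw [e, zero_smul])
  ext x
  simp only [mem_kline, smul_smul]
  exact ⟨fun ⟨k, hk⟩ => ⟨k * c, hk⟩, fun ⟨k, hk⟩ => ⟨k / c, by rw [div_mul_cancel₀ _ hc]; exact hk⟩⟩

lemma finrank_inf_perp [FiniteDimensional F V] (hB : BNondeg Q) {U L : Submodule F V}
    (h : finrank F U = finrank F L) :
    finrank F ↥(L ⊓ perpSub Q U) = finrank F ↥(U ⊓ perpSub Q L) := by
  have e1 := Submodule.finrank_sup_add_finrank_inf_eq L (perpSub Q U)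
  have e2 : perpSub Q (L ⊔ perpSub Q U) = U ⊓ perpSub Q L := by
    refine le_antisymm ?_ ?_ <;> intro x hx
    · refine ⟨?_, fun n hn => hx n (Submodule.mem_sup_left hn)⟩
      rw [← OrthOverfield.perp_perp hB U]
      exact fun n hn => hx n (Submodule.mem_sup_right hn)
    · intro n hn
      obtain ⟨a, ha, b, hb, rfl⟩ := Submodule.mem_sup.1 hn
      show polar Q (a + b) x = 0
      rw [polar_add_left, show polar Q a x = 0 from hx.2 a ha, polar_comm Q b x,
        show polar Q x b = 0 from hb x hx.1, add_zero]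
  have e3 := finrank_orthogonal_polar hB (L ⊔ perpSub Q U)
  have e4 := finrank_orthogonal_polar hB U
  have := Submodule.finrank_le (L ⊔ perpSub Q U)
  have := U.finrank_le
  rw [e2] at e3
  omega

namespace Setup

variable {QK : QuadraticForm K V} {M : Subgroup (OQ Q)} (hS : Setup QK M)
include hS

lemma kline_polar {y a b : V} (hy : QK y = 0) (ha : a ∈ kline F K y) (hb : b ∈ kline F K y) :
    polar Q a b = 0 := by
  obtain ⟨k, rfl⟩ := mem_kline.1 ha
  obtain ⟨l, rfl⟩ := mem_kline.1 hb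
  rw [hS.polar_smul, polar_smul_right, hS.sing_iff.1 hy, smul_zero, mul_zero, map_zero]

lemma img_polar {g : OQ Q} {z a b : V} (hz : QK z = 0) (ha : a ∈ img K g z) (hb : b ∈ img K g z) :
    polar Q a b = 0 := by
  obtain ⟨k, rfl⟩ := mem_img.1 ha
  obtain ⟨l, rfl⟩ := mem_img.1 hb
  rw [OQ_polar]
  exact hS.kline_polar hz (mem_kline.2 ⟨k, rfl⟩) (mem_kline.2 ⟨l, rfl⟩)

lemma finiteDim : FiniteDimensional F V := Module.Finite.trans K V

/-- A maximal pair with a vector of the line orthogonal to the member. -/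
lemma exists_max {g₀ : OQ Q} (hg₀ : g₀ ∈ M) {z₀ y₀ : V} (hz₀ : QK z₀ = 0) (hz₀' : z₀ ≠ 0)
    (hy₀ : QK y₀ = 0) (hy₀' : y₀ ≠ 0) (hne₀ : img K g₀ z₀ ≠ kline F K y₀)
    (hmeet : img K g₀ z₀ ⊓ kline F K y₀ ≠ ⊥) :
    ∃ (g : OQ Q) (z y x₀ : V), g ∈ M ∧ QK z = 0 ∧ z ≠ 0 ∧ QK y = 0 ∧ y ≠ 0 ∧
      img K g z ≠ kline F K y ∧ img K g z ⊓ kline F K y ≠ ⊥ ∧ x₀ ∈ kline F K y ∧ x₀ ∉ img K g z ∧
      (∀ k : K, polar Q (g.1 (k • z)) x₀ = 0) ∧
      ∀ g' ∈ M, ∀ z' y', QK z' = 0 → z' ≠ 0 → QK y' = 0 → y' ≠ 0 →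
        finrank F ↥(img K g z ⊓ kline F K y) < finrank F ↥(img K g' z' ⊓ kline F K y') →
          img K g' z' = kline F K y' := by
  classical
  haveI := hS.finiteF
  haveI := hS.finiteDim
  let P : ℕ → Prop := fun e => ∃ (g : OQ Q) (z y : V), g ∈ M ∧ QK z = 0 ∧ z ≠ 0 ∧ QK y = 0 ∧
    y ≠ 0 ∧ img K g z ≠ kline F K y ∧ finrank F ↥(img K g z ⊓ kline F K y) = e
  have hP₀ : P (finrank F ↥(img K g₀ z₀ ⊓ kline F K y₀)) :=
    ⟨g₀, z₀, y₀, hg₀, hz₀, hz₀', hy₀, hy₀', hne₀, rfl⟩
  have hPle : ∀ e, P e → e ≤ finrank F K := by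
    rintro e ⟨g, z, y, -, -, -, -, hy, -, rfl⟩
    exact (Submodule.finrank_mono inf_le_right).trans_eq (finrank_kline hy)
  obtain ⟨em, hem⟩ : ∃ em, em = Nat.findGreatest P (finrank F K) := ⟨_, rfl⟩
  have hmP : P em := hem ▸ Nat.findGreatest_spec (hPle _ hP₀) hP₀
  have hm1 : 1 ≤ em := by
    refine le_trans ?_ (hem ▸ Nat.le_findGreatest (hPle _ hP₀) hP₀)
    rw [Nat.one_le_iff_ne_zero, Ne, Submodule.finrank_eq_zero]
    exact hmeet
  have hmax : ∀ g' ∈ M, ∀ z' y', QK z' = 0 → z' ≠ 0 → QK y' = 0 → y' ≠ 0 →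
      em < finrank F ↥(img K g' z' ⊓ kline F K y') → img K g' z' = kline F K y' := by
    intro g' hg' z' y' h1 h2 h3 h4 hlt
    by_contra hn
    have hP' : P _ := ⟨g', z', y', hg', h1, h2, h3, h4, hn, rfl⟩
    have := Nat.le_findGreatest (hPle _ hP') hP'
    omega
  obtain ⟨g, z, y, hg, hz, hz0, hy, hy0, hne, he⟩ := hmP
  have hbot : img K g z ⊓ kline F K y ≠ ⊥ := fun hb => by rw [hb, finrank_bot] at he; omega
  have hfU : finrank F (img K g z) = finrank F (kline F K y) := by
    rw [finrank_img hz0, finrank_kline hy0]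
  by_cases hx : ∃ x₀ ∈ kline F K y, x₀ ∉ img K g z ∧ ∀ k : K, polar Q (g.1 (k • z)) x₀ = 0
  · obtain ⟨x₀, h1, h2, h3⟩ := hx
    exact ⟨g, z, y, x₀, hg, hz, hz0, hy, hy0, hne, hbot, h1, h2, h3, by rw [he]; exact hmax⟩
  push Not at hx
  have hLU : kline F K y ⊓ perpSub Q (img K g z) ≤ img K g z := fun x hxm => by
    by_contra hn
    obtain ⟨k, hk⟩ := hx x hxm.1 hn
    exact hk (hxm.2 _ (mem_img.2 ⟨k, rfl⟩))
  obtain ⟨d, hd, hd0⟩ := (Submodule.ne_bot_iff _).1 hbot
  have hLd : kline F K d = kline F K y := kline_eq hd.2 hd0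
  have hdq : QK d = 0 := by
    obtain ⟨c, rfl⟩ := mem_kline.1 hd.2
    rw [QuadraticMap.map_smul, hy, smul_zero]
  have hdd : polar QK d d = 0 := hS.sing_iff.1 hdq
  -- a member vector not orthogonal to the line
  obtain ⟨u, hu, hdu⟩ : ∃ u ∈ img K g z, polar QK d u ≠ 0 := by
    by_contra hcon
    push Not at hcon
    have hle : kline F K y ≤ kline F K y ⊓ perpSub Q (img K g z) := fun x hxm =>
      ⟨hxm, fun n hn => by
        obtain ⟨c, rfl⟩ := mem_kline.1 (hLd.symm ▸ hxm)
        show polar Q n (c • d) = 0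
        rw [polar_comm, hS.polar_smul, hcon n hn, mul_zero, map_zero]⟩
    exact hne (Submodule.eq_of_le_of_finrank_eq (hle.trans hLU) hfU.symm).symm
  have huL : u ∉ kline F K y := fun h => hdu (by
    obtain ⟨c, rfl⟩ := mem_kline.1 (hLd.symm ▸ h)
    rw [polar_smul_right, hdd, smul_zero])
  -- the parameter space
  obtain ⟨f, -, hdf⟩ := hS.exists_partner hdq hd0
  obtain ⟨S, hSdef⟩ : ∃ S, S = perpSub QK (Submodule.span K ({d, f} : Set V)) := ⟨_, rfl⟩
  have hS2 : 2 * finrank F K ≤ finrank F S := by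
    have h1 : finrank K (Submodule.span K ({d, f} : Set V)) ≤ 2 := by
      have h0 := finrank_span_finset_le_card (R := K) ({d, f} : Finset V)
      unfold Set.finrank at h0
      rw [Finset.coe_pair] at h0
      exact h0.trans Finset.card_le_two
    have h2 := hS.perp_finrank (Submodule.span K ({d, f} : Set V))
    rw [← hSdef] at h2
    have := hS.dim
    rw [← Module.finrank_mul_finrank F K S, mul_comm]
    exact Nat.mul_le_mul_left _ (by omega)
  haveI : FiniteDimensional F S := Module.Finite.trans K S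
  obtain ⟨C, hC⟩ := (F ∙ d).exists_isCompl
  have hCdim : finrank F ↥(img K g z ⊓ C) < finrank F K := by
    have e1 := Submodule.finrank_sup_add_finrank_inf_eq (F ∙ d) (img K g z ⊓ C)
    rw [finrank_span_singleton hd0,
      ((hC.disjoint.mono_right inf_le_right).eq_bot : (F ∙ d) ⊓ (img K g z ⊓ C) = ⊥),
      finrank_bot] at e1
    have e2 := Submodule.finrank_mono (sup_le ((Submodule.span_singleton_le_iff_mem _ _).2 hd.1)
      (inf_le_left : img K g z ⊓ C ≤ img K g z))
    rw [finrank_img hz0] at e2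
    omega
  let bc := Module.finBasis F ↥(img K g z ⊓ C)
  let L : Fin (finrank F ↥(img K g z ⊓ C)) → S →ₗ[F] F := fun i =>
    { toFun := fun a => Algebra.trace F K (polar QK d (bc i : V) * polar QK (a : V) u) -
        Algebra.trace F K (polar QK d u * polar QK (a : V) (bc i : V))
      map_add' := fun a a' => by
        rw [Submodule.coe_add, polar_add_left, polar_add_left, mul_add, mul_add, map_add, map_add]
        ring
      map_smul' := fun t a => by
        rw [Submodule.coe_smul_of_tower, ← algebraMap_smul K t, polar_smul_left, polar_smul_left,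
          smul_eq_mul, smul_eq_mul, mul_left_comm, mul_left_comm _ (algebraMap F K t),
          ← Algebra.smul_def, ← Algebra.smul_def, map_smul, map_smul, RingHom.id_apply, smul_sub] }
  let β : Fin (finrank F ↥(img K g z ⊓ C)) → LinearMap.BilinForm F S := fun i =>
    LinearMap.mk₂ F (fun a a' => -Algebra.trace F K
        ((2 : K)⁻¹ * (polar QK d (bc i : V) * polar QK d u) * polar QK (a : V) (a' : V)))
      (fun a a' b => by rw [Submodule.coe_add, polar_add_left, mul_add, map_add, neg_add])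
      (fun t a b => by
        rw [Submodule.coe_smul_of_tower, ← algebraMap_smul K t, polar_smul_left, smul_eq_mul,
          mul_left_comm, ← Algebra.smul_def, map_smul, smul_neg])
      (fun a b b' => by rw [Submodule.coe_add, polar_add_right, mul_add, map_add, neg_add])
      (fun t a b => by
        rw [Submodule.coe_smul_of_tower, ← algebraMap_smul K t, polar_smul_right, smul_eq_mul,
          mul_left_comm, ← Algebra.smul_def, map_smul, smul_neg])
  obtain ⟨a, ha0, ha⟩ := exists_common_zero L β (by rw [Fintype.card_fin]; omega)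
  have hda : polar QK d (a : V) = 0 := by
    have : (a : V) ∈ perpSub QK (Submodule.span K ({d, f} : Set V)) := hSdef ▸ a.2
    exact this d (Submodule.subset_span (Set.mem_insert _ _))
  have hfa : polar QK f (a : V) = 0 := by
    have : (a : V) ∈ perpSub QK (Submodule.span K ({d, f} : Set V)) := hSdef ▸ a.2
    exact this f (Submodule.subset_span (Set.mem_insert_of_mem _ rfl))
  obtain ⟨k, hk, hkx⟩ := hS.exists_siegel hdq hda
  have hfix : ∀ x ∈ kline F K y, k.1 x = x := by
    intro x hxm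
    obtain ⟨c, rfl⟩ := mem_kline.1 (hLd.symm ▸ hxm)
    rw [hkx, polar_smul_right, polar_smul_right, hdd, polar_comm QK (a : V) d, hda]
    simp
  have hcond : ∀ w ∈ img K g z, polar Q (k.1 w) u = 0 := by
    intro w hw
    obtain ⟨s, hs, c, hc, rfl⟩ := Submodule.mem_sup.1
      (show w ∈ (F ∙ d) ⊔ C by rw [hC.sup_eq_top]; trivial)
    obtain ⟨t, rfl⟩ := Submodule.mem_span_singleton.1 hs
    have hcU : c ∈ img K g z ⊓ C := ⟨by
      simpa using sub_mem hw ((img K g z).smul_mem t hd.1), hc⟩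
    let φ : V →ₗ[F] F := (Q.polarBilin.flip u) ∘ₗ k.1.toLinearMap
    have hφd : φ d = 0 := by
      show polar Q (k.1 d) u = 0
      rw [hfix d hd.2]
      exact hS.img_polar hz hd.1 hu
    have hφ : φ ∘ₗ (img K g z ⊓ C).subtype = 0 := bc.ext fun i => by
      show polar Q (k.1 (bc i : V)) u = 0
      have e := ha i
      simp only [L, β, LinearMap.coe_mk, AddHom.coe_mk, LinearMap.mk₂_apply, polar_self,
        two_smul] at e
      rw [show (2 : K)⁻¹ * (polar QK d (bc i : V) * polar QK d u) * (QK (a : V) + QK (a : V)) =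
        QK (a : V) * polar QK d (bc i : V) * polar QK d u by
          rw [← two_mul]; field_simp [hS.twoK]] at e
      rw [hkx, hS.polar_trace, polar_sub_left, polar_sub_left, polar_add_left, polar_smul_left,
        polar_smul_left, polar_smul_left, map_sub, map_sub, map_add, ← hS.polar_trace,
        hS.img_polar hz (bc i).2.1 hu, smul_eq_mul, smul_eq_mul, smul_eq_mul,
        mul_comm (polar QK (a : V) (bc i : V))]
      linear_combination e
    show φ (t • d + c) = 0
    rw [map_add, map_smul, hφd, smul_zero, zero_add]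
    exact LinearMap.congr_fun hφ ⟨c, hcU⟩
  obtain ⟨y', hy'⟩ : ∃ y', y' = k.1 u - u := ⟨_, rfl⟩
  have hy'L : y' ∉ kline F K y := by
    intro hm
    obtain ⟨c, hc⟩ := mem_kline.1 (hLd.symm ▸ hm)
    rw [hy', hkx] at hc
    have hc' : polar QK d u • (a : V) =
        (c + polar QK (a : V) u + QK (a : V) * polar QK d u) • d := by
      linear_combination (norm := module) -hc
    have h0 := congrArg (polar QK f) hc'
    rw [polar_smul_right, polar_smul_right, hfa, smul_zero, polar_comm QK f d, hdf, smul_eq_mul,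
      mul_one] at h0
    rw [← h0, zero_smul, smul_eq_zero] at hc'
    exact ha0 (Subtype.ext (hc'.resolve_left hdu))
  have hy'perp : y' ∈ perpSub Q (kline F K y) := fun n hn => by
    obtain ⟨c, rfl⟩ := mem_kline.1 (hLd.symm ▸ hn)
    show polar Q (c • d) y' = 0
    rw [hy', hkx, hS.polar_smul]
    simp [polar_add_right, polar_sub_right, polar_smul_right, hda, hdd]
  by_cases hkU : (img K g z).map k.1.toLinearMap = img K g z
  · exfalso
    have hy'U : y' ∈ img K g z :=
      hy' ▸ sub_mem (hkU ▸ Submodule.mem_map_of_mem (f := k.1.toLinearMap) hu) hu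
    have hle : img K g z ⊓ kline F K y ≤ img K g z ⊓ perpSub Q (kline F K y) :=
      le_inf inf_le_left fun x hxm n hn => hS.kline_polar hy hn hxm.2
    have hlt : finrank F ↥(img K g z ⊓ kline F K y) <
        finrank F ↥(img K g z ⊓ perpSub Q (kline F K y)) :=
      Submodule.finrank_lt_finrank_of_lt (lt_of_le_not_ge hle fun h => hy'L (h ⟨hy'U, hy'perp⟩).2)
    rw [← finrank_inf_perp hS.bnondeg hfU] at hlt
    have := Submodule.finrank_mono (show kline F K y ⊓ perpSub Q (img K g z) ≤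
      img K g z ⊓ kline F K y from le_inf hLU inf_le_left)
    omega
  obtain ⟨g', hg'⟩ : ∃ g', g' = g⁻¹ * k * g := ⟨_, rfl⟩
  have hg'x : ∀ x, g.1 (g'.1 x) = k.1 (g.1 x) := fun x => by
    rw [hg']; exact g.1.apply_symm_apply _
  have hg'M : g' ∈ M := hg' ▸ mul_mem (mul_mem (inv_mem hg) hk) hg
  have himg : (img K g' z).map g.1.toLinearMap = (img K g z).map k.1.toLinearMap := by
    rw [img, img, ← Submodule.map_comp, ← Submodule.map_comp]
    exact congrArg (Submodule.map · (kline F K z)) (LinearMap.ext hg'x)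
  have hinf : (img K g' z ⊓ kline F K z).map g.1.toLinearMap =
      (img K g z).map k.1.toLinearMap ⊓ img K g z := by
    rw [Submodule.map_inf _ g.1.injective, himg]
    rfl
  have hne' : img K g' z ≠ kline F K z := fun e => hkU (by rw [← himg, e]; rfl)
  have hle : img K g z ⊓ kline F K y ≤ (img K g z).map k.1.toLinearMap ⊓ img K g z :=
    fun x hxm => ⟨⟨x, hxm.1, hfix x hxm.2⟩, hxm.1⟩
  have hfin : finrank F ↥(img K g' z ⊓ kline F K z) =
      finrank F ↥((img K g z).map k.1.toLinearMap ⊓ img K g z) := by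
    rw [← hinf, LinearEquiv.finrank_map_eq]
  have hle' : finrank F ↥(img K g' z ⊓ kline F K z) ≤ em := not_lt.1 fun h =>
    hne' (hmax g' hg'M z z hz hz0 hz hz0 h)
  have heq := Submodule.eq_of_le_of_finrank_le hle (by rw [← hfin, he]; exact hle')
  refine ⟨g', z, z, g.1.symm u, hg'M, hz, hz0, hz, hz0, hne', ?_, ?_, ?_, ?_, ?_⟩
  · intro hb
    rw [hb, Submodule.map_bot, ← heq] at hinf
    exact hbot hinf.symm
  · obtain ⟨c, rfl⟩ := mem_img.1 hu
    rw [LinearEquiv.symm_apply_apply]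
    exact mem_kline.2 ⟨c, rfl⟩
  · intro hm
    obtain ⟨c, hc⟩ := mem_img.1 hm
    have hc' : k.1 (g.1 (c • z)) = u := by rw [← hg'x, hc, LinearEquiv.apply_symm_apply]
    have : u ∈ img K g z ⊓ kline F K y := by
      rw [heq]
      exact ⟨⟨_, mem_img.2 ⟨c, rfl⟩, hc'⟩, hu⟩
    exact huL this.2
  · intro c
    rw [← OQ_polar g, hg'x, LinearEquiv.apply_symm_apply]
    exact hcond _ (mem_img.2 ⟨c, rfl⟩)
  · intro g'' hg'' z' y'' h1 h2 h3 h4 hlt
    refine hmax g'' hg'' z' y'' h1 h2 h3 h4 (lt_of_le_of_lt ?_ hlt)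
    rw [hfin, ← heq, he]

/-- An element of `M` stabilising a line and moving it by a functional. -/
theorem exists_line_map {g₀ : OQ Q} (hg₀ : g₀ ∈ M) {z₀ y₀ : V} (hz₀ : QK z₀ = 0) (hz₀' : z₀ ≠ 0)
    (hy₀ : QK y₀ = 0) (hy₀' : y₀ ≠ 0) (hne₀ : img K g₀ z₀ ≠ kline F K y₀)
    (hmeet : img K g₀ z₀ ⊓ kline F K y₀ ≠ ⊥) :
    ∃ (R : OQ Q) (d : V) (ψ : K →ₗ[F] F), R ∈ M ∧ QK d = 0 ∧ d ≠ 0 ∧ ψ ≠ 0 ∧ ψ 1 = 0 ∧
      ∀ l : K, R.1 (l • d) = (l + ψ l • (1 : K)) • d := by
  classical
  obtain ⟨g, z, y, x₀, hg, hz, hz0, hy, hy0, hne, hbot, hx₀, hx₀U, hperp, hmax⟩ :=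
    hS.exists_max hg₀ hz₀ hz₀' hy₀ hy₀' hne₀ hmeet
  haveI := hS.finiteF
  haveI := hS.finiteDim
  haveI := hS.finiteV
  have hzz : polar QK z z = 0 := hS.sing_iff.1 hz
  obtain ⟨x', hx'⟩ : ∃ x', x' = g.1.symm x₀ := ⟨_, rfl⟩
  have hgx' : g.1 x' = x₀ := by rw [hx', LinearEquiv.apply_symm_apply]
  have hzx' : polar QK z x' = 0 := hS.ext_tr fun k => by
    rw [mul_zero, map_zero, ← hS.polar_smul, ← OQ_polar g, hgx', hperp]
  have hx'z : ∀ c : K, c • z ≠ x' := fun c h => hx₀U (mem_img.2 ⟨c, by rw [h, hgx']⟩)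
  let J : Submodule F K := (kline F K y).comap
    (g.1.toLinearMap ∘ₗ (LinearMap.toSpanSingleton K V z).restrictScalars F)
  have hJ : ∀ k, k ∈ J ↔ g.1 (k • z) ∈ kline F K y := fun k => Iff.rfl
  have hJtop : J ≠ ⊤ := fun h => hne (Submodule.eq_of_le_of_finrank_eq (fun x hx => by
    obtain ⟨k, rfl⟩ := mem_img.1 hx
    exact (hJ k).1 (h ▸ Submodule.mem_top)) (by rw [finrank_img hz0, finrank_kline hy0]))
  obtain ⟨k₀, hk₀, hk₀0⟩ : ∃ k₀ ∈ J, k₀ ≠ 0 := by
    obtain ⟨d, hd, hd0⟩ := (Submodule.ne_bot_iff _).1 hbot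
    obtain ⟨k, rfl⟩ := mem_img.1 hd.1
    exact ⟨k, hd.2, fun e => hd0 (by rw [e, zero_smul, map_zero])⟩
  -- stabilisers of the line
  have hstab : ∀ a : V, polar QK z a = 0 → polar QK a x' ∈ J → ∀ l ∈ kline F K y,
      g.1 (g.1.symm l + polar QK z (g.1.symm l) • a - polar QK a (g.1.symm l) • z -
        (QK a * polar QK z (g.1.symm l)) • z) ∈ kline F K y := by
    intro a ha hax l hl
    obtain ⟨t, ht, htx⟩ := hS.exists_siegel hz ha
    obtain ⟨R, hRdef⟩ : ∃ R, R = g * t * g⁻¹ := ⟨_, rfl⟩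
    have hRx : ∀ x, R.1 x = g.1 (t.1 (g.1.symm x)) := fun x => by rw [hRdef]; rfl
    have hRU : ∀ x ∈ img K g z, R.1 x = x := by
      intro x hx
      obtain ⟨k, rfl⟩ := mem_img.1 hx
      rw [hRx, LinearEquiv.symm_apply_apply, htx]
      simp [polar_smul_right, hzz, polar_comm QK a z, ha]
    have hR0 : R.1 x₀ ∈ kline F K y := by
      rw [hRx, ← hx', htx, hzx']
      simp only [zero_smul, add_zero, mul_zero, sub_zero, map_sub, hgx']
      exact sub_mem hx₀ ((hJ _).1 hax)
    have hRM : R ∈ M := hRdef ▸ mul_mem (mul_mem hg ht) (inv_mem hg)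
    have hline : img K R y = kline F K y := by
      refine hmax R hRM y y hy hy0 hy hy0 (Submodule.finrank_lt_finrank_of_lt ?_)
      refine lt_of_le_not_ge (fun x hx => ⟨⟨x, hx.2, hRU x hx.1⟩, hx.2⟩) fun hle => ?_
      have hmem : R.1 x₀ ∈ img K g z ⊓ kline F K y := hle ⟨Submodule.mem_map_of_mem hx₀, hR0⟩
      apply hx₀U
      rw [← R.1.injective (hRU _ hmem.1)]
      exact hmem.1
    have h := hline.le (Submodule.mem_map_of_mem (f := R.1.toLinearMap) hl)
    rw [LinearEquiv.coe_toLinearMap, hRx, htx] at h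
    exact h
  -- the line lies in the orthogonal of `z`
  have hzl : ∀ l ∈ kline F K y, polar QK z (g.1.symm l) = 0 := by
    intro l hl
    by_contra hθ
    obtain ⟨a₀, ha₀, ha₀x, ha₀z⟩ := hS.exists_perp₂_not_mem z x'
    have hmem : ∀ k : K, g.1 ((polar QK z (g.1.symm l) * k) • a₀ -
        (polar QK (k • a₀) (g.1.symm l) + QK (k • a₀) * polar QK z (g.1.symm l)) • z) ∈
          kline F K y := by
      intro k
      have h := sub_mem (hstab (k • a₀) (by rw [polar_smul_right, ha₀, smul_zero]) (by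
        rw [polar_smul_left, polar_comm, ha₀x, smul_zero]; exact J.zero_mem) l hl) hl
      rw [show g.1.symm l + polar QK z (g.1.symm l) • k • a₀ -
          polar QK (k • a₀) (g.1.symm l) • z - (QK (k • a₀) * polar QK z (g.1.symm l)) • z =
        g.1.symm l + ((polar QK z (g.1.symm l) * k) • a₀ -
          (polar QK (k • a₀) (g.1.symm l) + QK (k • a₀) * polar QK z (g.1.symm l)) • z) by module,
        map_add, LinearEquiv.apply_symm_apply, add_sub_cancel_left] at h
      exact h
    let Φ : K → kline F K y := fun k => ⟨_, hmem k⟩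
    have hinj : Function.Injective Φ := by
      intro k k' e
      have e1 := g.1.injective (congrArg Subtype.val e)
      by_contra hkk
      have hc : polar QK z (g.1.symm l) * (k - k') ≠ 0 := mul_ne_zero hθ (sub_ne_zero.2 hkk)
      refine ha₀z ((polar QK z (g.1.symm l) * (k - k'))⁻¹ *
        ((polar QK (k • a₀) (g.1.symm l) + QK (k • a₀) * polar QK z (g.1.symm l)) -
          (polar QK (k' • a₀) (g.1.symm l) + QK (k' • a₀) * polar QK z (g.1.symm l)))) ?_
      rw [mul_smul, inv_smul_eq_iff₀ hc]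
      linear_combination (norm := module) -e1
    have hsurj := (Finite.injective_iff_surjective_of_equiv
      (LinearEquiv.ofFinrankEq K (kline F K y) (finrank_kline hy0).symm).toEquiv).1 hinj
    obtain ⟨k, hk⟩ := hsurj ⟨l, hl⟩
    have e1 := congrArg (fun x => polar QK z (g.1.symm x)) (congrArg Subtype.val hk)
    simp only [Φ, LinearEquiv.symm_apply_apply, polar_sub_right, polar_smul_right, ha₀, hzz,
      smul_zero, sub_zero] at e1
    exact hθ e1.symm
  have hkill : ∀ a : V, polar QK z a = 0 → polar QK a x' ∈ J → ∀ l ∈ kline F K y,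
      polar QK a (g.1.symm l) ∈ J := by
    intro a ha hax l hl
    have h := sub_mem hl (hstab a ha hax l hl)
    rw [hzl l hl] at h
    simpa [hJ] using h
  obtain ⟨a₁, ha₁, ha₁x⟩ := hS.exists_dual hx'z
  let St : Subalgebra F K :=
    { carrier := {s | ∀ j ∈ J, s * j ∈ J}
      mul_mem' := fun {s t} hs ht j hj => by rw [mul_assoc]; exact hs _ (ht j hj)
      one_mem' := fun j hj => by rwa [one_mul]
      add_mem' := fun {s t} hs ht j hj => by rw [add_mul]; exact J.add_mem (hs j hj) (ht j hj)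
      zero_mem' := fun j _ => by rw [zero_mul]; exact J.zero_mem
      algebraMap_mem' := fun f j hj => by rw [← Algebra.smul_def]; exact J.smul_mem f hj }
  have hdec : ∀ l ∈ kline F K y, ∃ (α : K) (c : F),
      g.1.symm l = α • z + algebraMap F K c • x' := by
    intro l hl
    obtain ⟨α, β, hαβ⟩ : ∃ α β : K, α • z + β • x' = g.1.symm l := by
      refine Submodule.mem_span_pair.1 (by
        by_contra hn
        obtain ⟨a, ha, hax, hal⟩ := hS.exists_dual₂ z x' hn
        refine hJtop (Submodule.eq_top_iff'.2 fun k => ?_)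
        have := hkill (k • a) (by rw [polar_smul_right, ha, smul_zero]) (by
          rw [polar_smul_left, polar_comm, hax, smul_zero]; exact J.zero_mem) l hl
        rwa [polar_smul_left, polar_comm, hal, smul_eq_mul, mul_one] at this)
    have hβ : β ∈ St := fun j hj => by
      have := hkill (j • a₁) (by rw [polar_smul_right, ha₁, smul_zero])
        (by rw [polar_smul_left, polar_comm, ha₁x, smul_eq_mul, mul_one]; exact hj) l hl
      rw [← hαβ, polar_smul_left, polar_add_right, polar_smul_right, polar_smul_right,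
        polar_comm QK a₁ z, ha₁, polar_comm QK a₁ x', ha₁x, smul_zero, zero_add, smul_eq_mul,
        smul_eq_mul, mul_one, mul_comm] at this
      exact this
    haveI := Subalgebra.isSimpleOrder_of_finrank_prime F K hS.prime
    rcases eq_bot_or_eq_top St with hb | ht
    · rw [hb, Algebra.mem_bot] at hβ
      obtain ⟨c, rfl⟩ := hβ
      exact ⟨α, c, hαβ.symm⟩
    · refine absurd (Submodule.eq_top_iff'.2 fun k => ?_) hJtop
      have : k / k₀ ∈ St := ht ▸ Algebra.mem_top
      simpa [div_mul_cancel₀ _ hk₀0] using this k₀ hk₀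
  obtain ⟨t, ht, htx⟩ := hS.exists_siegel hz (a := k₀ • a₁)
    (by rw [polar_smul_right, ha₁, smul_zero])
  obtain ⟨R, hRdef⟩ : ∃ R, R = g * t * g⁻¹ := ⟨_, rfl⟩
  have hRx : ∀ x, R.1 x = g.1 (t.1 (g.1.symm x)) := fun x => by rw [hRdef]; rfl
  obtain ⟨d, hd⟩ : ∃ d, d = g.1 (k₀ • z) := ⟨_, rfl⟩
  have hdL : d ∈ kline F K y := hd ▸ hk₀
  have hd0 : d ≠ 0 := fun e => smul_ne_zero hk₀0 hz0 (g.1.map_eq_zero_iff.1 (hd ▸ e))
  have hLd : kline F K d = kline F K y := kline_eq hdL hd0
  have hdq : QK d = 0 := by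
    obtain ⟨c, hc⟩ := mem_kline.1 hdL
    rw [← hc, QuadraticMap.map_smul, hy, smul_zero]
  have hR : ∀ α : K, ∀ c : F, R.1 (g.1 (α • z + algebraMap F K c • x')) =
      g.1 (α • z + algebraMap F K c • x') - c • d := by
    intro α c
    rw [hRx, LinearEquiv.symm_apply_apply, htx, hd, ← g.1.map_smul, ← map_sub]
    congr 1
    simp only [polar_add_right, polar_smul_right, polar_smul_left, hzz, hzx', polar_comm QK a₁ z,
      ha₁, polar_comm QK a₁ x', ha₁x, smul_eq_mul, mul_zero, zero_smul, add_zero, sub_zero,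
      zero_add, mul_one]
    rw [← algebraMap_smul K c (k₀ • z)]
    module
  obtain ⟨H, hH⟩ : ∃ H, Algebra.trace F K H = 1 := by
    obtain ⟨c, hc⟩ := hS.exists_tr_ne (one_ne_zero : (1 : K) ≠ 0)
    rw [mul_one] at hc
    exact ⟨(Algebra.trace F K c)⁻¹ • c, by rw [map_smul, smul_eq_mul, inv_mul_cancel₀ hc]⟩
  obtain ⟨s, hs⟩ := hS.exists_coord hd0 H
  have hsd : polar Q s d = 1 := by rw [hS.polar_trace, polar_comm, hs, hH]
  let ψ : K →ₗ[F] F := (Q.polarBilin s) ∘ₗ (R.1.toLinearMap - LinearMap.id) ∘ₗ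
    (LinearMap.toSpanSingleton K V d).restrictScalars F
  have hψ : ∀ (l α : K) (c : F), g.1.symm (l • d) = α • z + algebraMap F K c • x' →
      R.1 (l • d) = l • d - c • d ∧ ψ l = -c := by
    intro l α c e
    have e' : l • d = g.1 (α • z + algebraMap F K c • x') := by
      rw [← e, LinearEquiv.apply_symm_apply]
    have e2 : R.1 (l • d) = l • d - c • d := by rw [e', hR]
    refine ⟨e2, ?_⟩
    show polar Q s (R.1 (l • d) - l • d) = -c
    rw [e2, sub_sub_cancel_left, polar_neg_right, polar_smul_right, hsd, smul_eq_mul, mul_one]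
  refine ⟨R, d, ψ, hRdef ▸ mul_mem (mul_mem hg ht) (inv_mem hg), hdq, hd0, fun h0 => ?_, ?_,
    fun l => ?_⟩
  · obtain ⟨l₀, hl₀⟩ := mem_kline.1 (hLd.symm ▸ hx₀)
    have := (hψ l₀ 0 1 (by rw [hl₀, ← hx', map_one, one_smul, zero_smul, zero_add])).2
    rw [h0, LinearMap.zero_apply, eq_comm, neg_eq_zero] at this
    exact one_ne_zero this
  · have := (hψ 1 k₀ 0 (by rw [hd, one_smul, LinearEquiv.symm_apply_apply, map_zero, zero_smul,
      add_zero])).2
    rwa [neg_zero] at this
  · obtain ⟨α, c, hc⟩ := hdec (l • d) (smul_mem_kline hdL l)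
    obtain ⟨e1, e2⟩ := hψ l α c hc
    rw [e1, e2, add_smul, smul_assoc, one_smul, neg_smul, sub_eq_add_neg]

/-- A pair gives all root elements somewhere. -/
theorem allSk_of_pair {g₀ : OQ Q} (hg₀ : g₀ ∈ M) {z₀ y₀ : V} (hz₀ : QK z₀ = 0) (hz₀' : z₀ ≠ 0)
    (hy₀ : QK y₀ = 0) (hy₀' : y₀ ≠ 0) (hne₀ : img K g₀ z₀ ≠ kline F K y₀)
    (hmeet : img K g₀ z₀ ⊓ kline F K y₀ ≠ ⊥) : ∃ v, QK v = 0 ∧ v ≠ 0 ∧ AllSk QK M v := by
  haveI := hS.finiteF
  obtain ⟨R, d, ψ, hR, hd, hd0, hψ, hψ1, hRd⟩ :=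
    hS.exists_line_map hg₀ hz₀ hz₀' hy₀ hy₀' hne₀ hmeet
  refine ⟨d, hd, hd0, fun a b => ?_⟩
  rcases hS.key hR hd hd0 hd hd0 (fun k => ⟨_, hRd k⟩) with hC | ⟨θ, hθ⟩
  swap
  · exfalso
    have hθ' : ∀ k, θ k = k + ψ k • (1 : K) := fun k => by
      have e := hθ k d (hS.sing_iff.1 hd)
      have e1 := hRd 1
      rw [hψ1, zero_smul, add_zero, one_smul] at e1
      rw [hRd, e1] at e
      exact (smul_left_injective K hd0 e).symm
    obtain ⟨l, hl⟩ : ∃ l, ψ l ≠ 0 := by
      by_contra h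
      push Not at h
      exact hψ (LinearMap.ext h)
    obtain ⟨k, hk⟩ : ∃ k, ψ k = 1 :=
      ⟨(ψ l)⁻¹ • l, by rw [map_smul, smul_eq_mul, inv_mul_cancel₀ hl]⟩
    have e := hθ' (k * k)
    rw [map_mul, hθ' k, hk, one_smul, Algebra.smul_def, mul_one] at e
    have h2k : algebraMap F K 2 * k = algebraMap F K (ψ (k * k) - 1) := by
      rw [map_sub, map_one, map_ofNat]; linear_combination e
    have hk' : k = ((ψ (k * k) - 1) / 2) • (1 : K) := by
      rw [Algebra.smul_def, mul_one, map_div₀, ← h2k,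
        mul_div_cancel_left₀ _ (by rw [map_ofNat]; exact hS.twoK)]
    rw [hk', map_smul, hψ1, smul_zero] at hk
    exact zero_ne_one hk
  obtain ⟨A, hAskew, hA0, hA⟩ := hS.cent_elt hd hd0 hC
  show Sk a b ∈ hS.osub hd hd0
  rcases (hS.prime.two_le).eq_or_lt with hr | hr
  · exact sk_mem_of_two hS.two hr.symm _ hA hAskew hA0 a b
  obtain ⟨p, hp⟩ : ∃ p, ∀ l, ψ l = Algebra.trace F K (p * l) := by
    have htr : (Algebra.traceForm F K).Nondegenerate := traceForm_nondegenerate F K
    exact ⟨((Algebra.traceForm F K).toDual htr).symm ψ, fun l => by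
      have := LinearMap.BilinForm.apply_toDual_symm_apply (hB := htr) ψ l
      rw [Algebra.traceForm_apply] at this
      exact this.symm⟩
  refine sk_mem_of_closed hS.two hS.prime (by omega) (ψ := ψ) (p := p)
    ⟨hψ1, hψ, hp, fun B hB l hl => hS.osub_scale hd hd0 hB hl, fun B hB => ?_⟩ hA hAskew hA0 a b
  obtain ⟨e, he, hex⟩ := hB
  refine ⟨R * e * R⁻¹, mul_mem (mul_mem hR he) (inv_mem hR), fun x => ?_⟩
  obtain ⟨y, rfl⟩ := R.1.surjective x
  have hH : polar QK d y = polar QK d (R.1 y) +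
      Algebra.trace F K (polar QK d (R.1 y)) • p := hS.ext_tr fun k => by
    rw [← hS.polar_smul, ← OQ_polar R, hRd, hS.polar_smul, add_mul, mul_add, map_add, map_add,
      smul_mul_assoc, one_mul, mul_smul_comm, map_smul, map_smul, smul_eq_mul, smul_eq_mul, hp,
      mul_comm k p]
    ring
  show R.1 (e.1 (R.1.symm (R.1 y))) = _
  rw [LinearEquiv.symm_apply_apply, hex, map_add, hRd, hH]
  rfl

lemma exists_kernel (hodd : Odd (finrank F K)) {A : K →ₗ[F] K} (hA : IsSkew A) :
    ∃ k, k ≠ 0 ∧ A k = 0 := by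
  classical
  let b := Module.finBasis F K
  let N : Matrix (Fin (finrank F K)) (Fin (finrank F K)) F :=
    Matrix.of fun i j => Algebra.trace F K (b i * A (b j))
  have hN : N.transpose = -N := by
    ext i j
    exact hA (b j) (b i)
  have hdet : N.det = 0 := by
    have h := congrArg Matrix.det hN
    rw [Matrix.det_transpose, Matrix.det_neg, Fintype.card_fin, hodd.neg_one_pow] at h
    exact (mul_eq_zero.1 (show (2 : F) * N.det = 0 by linear_combination h)).resolve_left hS.two
  obtain ⟨v, hv, hv'⟩ := Matrix.exists_mulVec_eq_zero_iff.2 hdet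
  refine ⟨∑ j, v j • b j, fun h0 => hv (funext (Fintype.linearIndependent_iff.1 b.linearIndependent v h0)),
    hS.ext_tr fun k => ?_⟩
  have hz : (Algebra.trace F K) ∘ₗ LinearMap.mulRight F (A (∑ j, v j • b j)) = 0 := b.ext fun i => by
    have e := congrFun hv' i
    simp only [Matrix.mulVec, dotProduct, N, Matrix.of_apply, Pi.zero_apply] at e
    simp only [LinearMap.comp_apply, LinearMap.mulRight_apply, map_sum, map_smul, Finset.mul_sum,
      mul_smul_comm, LinearMap.zero_apply, smul_eq_mul]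
    rw [← e]
    exact Finset.sum_congr rfl fun j _ => mul_comm _ _
  rw [mul_zero, map_zero]
  exact LinearMap.congr_fun hz k

/-- An element fixing a hyperplane gives all root elements. -/
theorem allSk_of_cent {z : V} (hz : QK z = 0) (hz0 : z ≠ 0) (h : Cent QK M z) :
    ∃ v, QK v = 0 ∧ v ≠ 0 ∧ AllSk QK M v := by
  haveI := hS.finiteF
  obtain ⟨A, hAskew, hA0, hA⟩ := hS.cent_elt hz hz0 h
  rcases hS.prime.eq_two_or_odd' with hr | hr
  · exact ⟨z, hz, hz0, fun a b =>
      sk_mem_of_two hS.two hr (hS.osub hz hz0) hA hAskew hA0 a b⟩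
  obtain ⟨k₀, hk₀, hAk₀⟩ := hS.exists_kernel hr hAskew
  obtain ⟨g, hg, hgx⟩ := hA
  obtain ⟨v, hv, hzv⟩ := hS.exists_partner hz hz0
  have hv0 : v ≠ 0 := fun e => by simp [e] at hzv
  have hgv : ∀ k : K, g.1 (k • v) = k • v + A k • z := fun k => by
    rw [hgx, polar_smul_right, hzv, smul_eq_mul, mul_one]
  refine hS.allSk_of_pair hg hv hv0 hv hv0 (fun e => hA0 (LinearMap.ext fun k => ?_)) ?_
  · obtain ⟨c, hc⟩ := mem_kline.1 (e.le (mem_img.2 ⟨k, rfl⟩))
    rw [hgv] at hc
    have h0 := congrArg (polar QK z) hc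
    rw [polar_add_right, polar_smul_right, polar_smul_right, polar_smul_right, hzv,
      hS.sing_iff.1 hz, smul_zero, add_zero, smul_eq_mul, smul_eq_mul, mul_one, mul_one] at h0
    rw [h0, left_eq_add, smul_eq_zero] at hc
    exact hc.resolve_right hz0
  · refine (Submodule.ne_bot_iff _).2 ⟨k₀ • v, ⟨mem_img.2 ⟨k₀, ?_⟩, mem_kline.2 ⟨k₀, rfl⟩⟩,
      smul_ne_zero hk₀ hv0⟩
    rw [hgv, hAk₀, zero_smul, add_zero]

end Setup

end Cfsg.Agent.MaxSub.OrthExt
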